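import Cfsg.Agent.QT.Rank
import Cfsg.Agent.Solv.NilpotentHall
import Cfsg.Agent.Local.KCongr
import Cfsg.Agent.Gate.QTOutR

/-! Minimal perfect subnormal subgroups of strongly quasithin groups with trivial `2`-core. -/

set_option autoImplicit false

namespace Cfsg.Lib.QT

open Subgroup Cfsg.Lib.Solv Cfsg.Lib.Trans
open scoped Pointwise commutatorElement

universe u

variable {X : Type u} [Group X] [Finite X] {L K : Subgroup X}

theorem le_centralizer_fitting {N : Subgroup X}
    (h : ∀ p : ℕ, p.Prime → N ≤ centralizer (pCore p X : Set X)) :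
    N ≤ centralizer (fittingSubgroup X : Set X) :=
  le_centralizer_iff.1 (fitting_le_of_forall_pCore_le fun p hp => le_centralizer_iff.1 (h p hp.out))

theorem le_fitting_of_le_rad {N : Subgroup X} (h : N ≤ rad X)
    (hc : N ≤ centralizer (fittingSubgroup X : Set X)) : N ≤ fittingSubgroup X := by
  have := isSolvable_of_le (inf_le_left : rad X ⊓ centralizer (fittingSubgroup X : Set X) ≤ _)
    (rad_solv X)
  exact (le_inf h hc).trans (le_fitting_of_isSolvable_of_le_centralizer _ inf_le_right)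

theorem CC.centralizes_or (h2 : pCore 2 X = ⊥) (hX : IsStronglyQuasithin X) (hL : L ∈ calC X)
    (hK : K ∈ calC X) (hne : L ≠ K) {p : ℕ} (hp : p.Prime) :
    L ≤ centralizer (pCore p X : Set X) ∨ K ≤ centralizer (pCore p X : Set X) := by
  have := Fact.mk hp
  by_cases hp2 : p = 2
  · subst hp2
    exact Or.inl (le_centralizer_iff.1 (h2.le.trans bot_le))
  obtain ⟨N, hN, h1, h3⟩ := exists_ker hp2 (hX p hp hp2)
  rcases h3 L (L ⊔ K) hL.2.1 (perfect_sup hL.2.1 hK.2.1) le_sup_left
    (sup_le Subgroup.le_normalizer (CC.le_normalizer hL hK)) with h | h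
  · exact Or.inl (h1 L hL.2.1 h)
  rcases CC.le_or_le_dc hK hN.isSubnormal with h4 | h4
  · exact Or.inr (h1 K hK.2.1 h4)
  · exact absurd ((le_sup_right.trans h).trans (sup_le (CC.le_dc_of_ne hK hL hne.symm) h4))
      (CC.not_le_dc hK)

theorem CC.commutator_eq_bot (h2 : pCore 2 X = ⊥) (hX : IsStronglyQuasithin X) (hL : L ∈ calC X)
    (hK : K ∈ calC X) (hne : L ≠ K) : ⁅L, K⁆ = ⊥ := by
  have h1 : ⁅L, K⁆ ≤ fittingSubgroup X := by
    refine le_fitting_of_le_rad (le_dc_iff.1 (CC.le_dc_of_ne hK hL hne.symm))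
      (le_centralizer_fitting fun p hp => ?_)
    rcases CC.centralizes_or h2 hX hL hK hne hp with h | h
    · exact (commutator_mono h le_rfl).trans (commutator_le_left _ _)
    · exact (commutator_mono le_rfl h).trans (commutator_le_right _ _)
  have key : ∀ (p : ℕ) [Fact p.Prime] (A B : Subgroup X), ⁅B, B⁆ = B →
      ⁅A, B⁆ ≤ fittingSubgroup X → B ≤ centralizer (pCore p X : Set X) →
      ⁅A, B⁆ ≤ pPrimeCore p X := by
    intro p _ A B hB h3 h4
    rw [← QuotientGroup.ker_mk' (pPrimeCore p X), ← Subgroup.map_eq_bot_iff, map_commutator]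
    refine commutator_eq_bot_of_perfect (perfect_map hB _) ?_
    rw [← map_commutator, eq_bot_iff]
    refine (commutator_mono (map_mono (h3.trans (fitting_le_pCore_sup_pPrimeCore p X))) le_rfl).trans ?_
    rw [Subgroup.map_sup, (Subgroup.map_eq_bot_iff _).2 (QuotientGroup.ker_mk' _).ge, sup_bot_eq,
      ← map_commutator, commutator_comm, commutator_eq_bot_iff_le_centralizer.2 h4, Subgroup.map_bot]
  rw [← card_eq_one, Nat.eq_one_iff_not_exists_prime_dvd]
  intro p hp hd
  have := Fact.mk hp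
  refine not_dvd_card_pPrimeCore p X (hd.trans (card_dvd_of_le ?_))
  rcases CC.centralizes_or h2 hX hL hK hne hp with h | h
  · rw [commutator_comm] at h1 ⊢
    exact key p K L hL.2.1 h1 h
  · exact key p L K hK.2.1 h1 h

theorem CC.index_eq_two (h2 : pCore 2 X = ⊥) (hX : IsStronglyQuasithin X) (hL : L ∈ calC X)
    (hn : ¬ L.Normal) : (normalizer (L : Set X)).index = 2 :=
  index_normalizer_eq_two hX hL.2.1 hn fun g h e => commutator_eq_bot_iff_le_centralizer.1
    (CC.commutator_eq_bot h2 hX (CC.conj hL g) (CC.conj hL h) e)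

theorem CC.pRankLE_one (h2 : pCore 2 X = ⊥) (hX : IsStronglyQuasithin X) (hL : L ∈ calC X)
    (hn : ¬ L.Normal) {p : ℕ} (hp : p.Prime) (hp2 : p ≠ 2) : PRankLE p 1 L := by
  have := Fact.mk hp
  obtain ⟨a, ha⟩ : ∃ a, a ∉ normalizer (L : Set X) := by
    by_contra! h
    exact hn (normalizer_eq_top_iff.1 (eq_top_iff.2 fun x _ => h x))
  exact pRankLE_one_of_le_centralizer hp2 (hX p hp hp2) (CC.conj hL a).2.1
    (card_conj_smul a L).symm.dvd (commutator_eq_bot_iff_le_centralizer.1
      (CC.commutator_eq_bot h2 hX hL (CC.conj hL a) fun e =>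
        ha (mem_normalizer_iff_conj_smul_eq.2 e.symm)))

theorem CC.isSimpleGroup (h2 : pCore 2 X = ⊥) (hL : L ∈ calC X)
    (hr : ∀ p : ℕ, p.Prime → p ≠ 2 → PRankLE p 1 L) : IsSimpleGroup L := by
  have := (nontrivial_iff_ne_bot L).2 hL.1
  have hp : ⁅(⊤ : Subgroup L), (⊤ : Subgroup L)⁆ = ⊤ := by
    have := perfect_subgroupOf hL.2.1 le_rfl
    rwa [subgroupOf_self] at this
  refine ⟨fun N hN => ?_⟩
  by_contra! h
  have hs : Group.IsSolvable N := solv_of_map L.subtype (by rw [ker_subtype]; infer_instance)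
    (CC.solv_of_lt hL (hN.isSubnormal.trans' (CC.sub hL)) (lt_of_le_of_ne (map_subtype_le _)
      fun e => h.2 (map_injective L.subtype_injective (by rw [e, ← MonoidHom.range_eq_map, range_subtype]))))
  obtain ⟨p, A, hp', hA, -, h3, h4, h5⟩ := exists_isMinNormal_elementary_le N h.1
  have := Fact.mk hp'
  have hAn := hA.1
  by_cases hp2 : p = 2
  · subst hp2
    have := le_pCore_of_isSubnormal (hAn.isSubnormal.trans' (CC.sub hL)) (h5.map L.subtype)
    rw [h2, le_bot_iff, map_eq_bot_iff_of_injective _ L.subtype_injective] at this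
    exact hA.ne_bot this
  have h6 := hr p hp' hp2 A h3 h4
  have h7 : p ∣ Nat.card A := h5.card_eq_or_dvd.resolve_left fun e => hA.ne_bot (card_eq_one.1 e)
  have h8 : Nat.card A = p := le_antisymm (by rwa [pow_one] at h6) (Nat.le_of_dvd Nat.card_pos h7)
  have := isCyclic_of_prime_card h8
  have h9 : (⊤ : Subgroup L) ≤ centralizer (A : Set L) := by
    rw [← ker_conjNormal]
    exact perfect_le_ker_of_isSolvable hp _ (Group.isSolvable_of_comm fun a b =>
      Subtype.ext (FT.BG4.mulAut_comm_of_isCyclic _ _))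
  obtain ⟨E, -, h10, h11⟩ := exists_ea_step hp2 hp (h7.trans (card_dvd_of_le le_top)) ⟨h3, h4⟩
    (le_centralizer_iff.1 h9)
  have := h11.trans (hr p hp' hp2 E h10.1 h10.2)
  have := hp'.two_le
  rw [h8, pow_one] at *
  nlinarith

theorem perfect_le_of_index_two {W N : Subgroup X} (hW : ⁅W, W⁆ = W) (h : N.index = 2) : W ≤ N := by
  have := normal_of_index_eq_two h
  have := perfect_le_ker_of_isSolvable hW (QuotientGroup.mk' N)
    (solv_of_pgroup (p := 2) ((IsPGroup.of_card (p := 2) (G := X ⧸ N) (n := 1) h).to_subgroup _))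
  rwa [QuotientGroup.ker_mk'] at this

theorem CC.perfect_le_normalizer (h2 : pCore 2 X = ⊥) (hX : IsStronglyQuasithin X)
    (hL : L ∈ calC X) {W : Subgroup X} (hW : ⁅W, W⁆ = W) : W ≤ normalizer (L : Set X) := by
  by_cases hn : L.Normal
  · exact le_normalizer_of_normal
  · exact perfect_le_of_index_two hW (CC.index_eq_two h2 hX hL hn)

theorem odd_card_center (h2 : pCore 2 X = ⊥) (hL : L.IsSubnormal) : Odd (Nat.card (center L)) := by
  rw [← Nat.not_even_iff_odd, even_iff_two_dvd]
  intro hd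
  obtain ⟨z, hz⟩ := exists_prime_orderOf_dvd_card' 2 hd
  have h1 : (zpowers (z : L)).Normal := ⟨fun n hn g => by
    rwa [mem_center_iff.1 (zpowers_le.2 z.2 hn) g, mul_inv_cancel_right]⟩
  have := le_pCore_of_isSubnormal (p := 2) (h1.isSubnormal.trans' hL)
    ((IsPGroup.of_card (n := 1) (by rw [Nat.card_zpowers, orderOf_coe, hz, pow_one])).map L.subtype)
  rw [h2, le_bot_iff, map_eq_bot_iff_of_injective _ L.subtype_injective, zpowers_eq_bot,
    OneMemClass.coe_eq_one] at this
  rw [this, orderOf_one] at hz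
  exact absurd hz (by norm_num)

theorem CC.isComponent_of_le_centralizer (hL : L ∈ calC X)
    (h : L ≤ centralizer (fittingSubgroup X : Set X)) : IsComponent L :=
  CC.isComponent_of_rad_eq_bot hL fun _ hN h1 h2 =>
    (le_fitting_of_le_rad (le_rad_of_isSubnormal h1 h2) (hN.trans h)).trans (le_centralizer_iff.1 h)

theorem CC.le_sup_dc [Agent.Gate.QTOutR.{u}] (h2 : pCore 2 X = ⊥) (hX : IsStronglyQuasithin X)
    (hK : IsKGroup X) (hL : L ∈ calC X) {W : Subgroup X} (hW : ⁅W, W⁆ = W) (hLW : L ≤ W) :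
    W ≤ L ⊔ dc L := by
  have hn := CC.perfect_le_normalizer h2 hX hL hW
  by_cases h : ∀ p : ℕ, p.Prime → L ≤ centralizer (pCore p X : Set X)
  · exact ((Agent.Gate.QTOutR.out L hK hX
      (CC.isComponent_of_le_centralizer hL (le_centralizer_fitting h)).2
      (odd_card_center h2 (CC.sub hL))).1 W hW hn).trans (sup_le_sup_left (centralizer_le_dc L) _)
  push Not at h
  obtain ⟨p, hp, h⟩ := h
  have := Fact.mk hp
  have hp2 : p ≠ 2 := by
    rintro rfl
    exact h (le_centralizer_iff.1 (h2.le.trans bot_le))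
  obtain ⟨N, hN, h1, h3⟩ := exists_ker hp2 (hX p hp hp2)
  exact ((h3 L W hL.2.1 hW hLW hn).resolve_left fun e => h (h1 L hL.2.1 e)).trans
    (sup_le_sup_left ((CC.le_or_le_dc hL hN.isSubnormal).resolve_left fun e => h (h1 L hL.2.1 e)) _)

theorem sSup_calC_eq_of_pCore_eq_bot [Agent.Gate.QTOutR.{u}] (h2 : pCore 2 X = ⊥)
    (hX : IsStronglyQuasithin X) (hK : IsKGroup X) : sSup (calC X) = perfectCore X :=
  le_antisymm (sSup_le fun _ hL => le_perfectCore hL.2.1) (le_sSup_calC (perfectCore_perfect X)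
    (fun _ hL => le_perfectCore hL.2.1) fun _ hL =>
      CC.le_sup_dc h2 hX hK hL (perfectCore_perfect X) (le_perfectCore hL.2.1))

/-! ### Passing to the quotient by the `2`-core -/

/-- The quotient map by the `2`-core. -/
abbrev q2 (X : Type*) [Group X] : X →* X ⧸ pCore 2 X := QuotientGroup.mk' (pCore 2 X)

omit [Finite X] in
theorem ker_q2 : (q2 X).ker = pCore 2 X := QuotientGroup.ker_mk' _

omit [Finite X] in
theorem q2_surj : Function.Surjective (q2 X) := QuotientGroup.mk'_surjective _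

theorem solv_ker_q2 : Group.IsSolvable (q2 X).ker := by
  rw [ker_q2]; exact solv_of_pgroup (pCore_isPGroup 2 X)

theorem sqt_quot (hX : IsStronglyQuasithin X) : IsStronglyQuasithin (X ⧸ pCore 2 X) :=
  fun p hp hp2 =>
    have := Fact.mk hp
    pRankLE_of_surjective (hX p hp hp2) (q2 X) q2_surj (by
      rw [ker_q2]
      exact coprime_card_of_isPGroup (pCore_isPGroup 2 X) ((Nat.coprime_primes hp Nat.prime_two).2 hp2))

theorem sqt_of_mem_calH (hQ : IsQuasithin X) {H : Subgroup X} (hH : H ∈ calH X) :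
    IsStronglyQuasithin H := fun p hp hp2 =>
  FT.BG4.pRankLE_of_le (hQ p hp hp2 _ ⟨_, isPGroup_map_pCore 2 H, fun e =>
    hH ((map_eq_bot_iff_of_injective _ H.subtype_injective).1 e), rfl⟩)
    (le_normalizer.trans (normalizer_le_normalizer_map_pCore 2 H))

theorem isKGroup_of_mem_calH [IsSimpleGroup X] (hG : ¬ IsMulCommutative X) (hK : IsKProper X)
    {H : Subgroup X} (hH : H ∈ calH X) : IsKGroup H := by
  refine hK H ?_
  rintro rfl
  have h1 : pCore 2 X = ⊤ := (IsSimpleGroup.eq_bot_or_eq_top_of_normal _ inferInstance).resolve_left fun e =>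
    hH ((pCore_eq_bot_congr topEquiv).2 e)
  exact hG ⟨⟨IsSimpleGroup.comm_iff_isSolvable.2
    (Cor.isSolvable_of_isPGroup (p := 2) (pCore_eq_top_iff.1 h1))⟩⟩

theorem sSup_calC_eq [Agent.Gate.QTOutR.{u}] (hX : IsStronglyQuasithin X) (hK : IsKGroup X) :
    sSup (calC X) = perfectCore X := by
  refine le_antisymm (sSup_le fun _ hL => le_perfectCore hL.2.1) (CC.le_of_map_le solv_ker_q2
    (perfectCore_perfect X) (sSup_calC_normal X).isSubnormal ?_)
  refine (le_perfectCore (perfect_map (perfectCore_perfect X) _)).trans ?_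
  rw [← sSup_calC_eq_of_pCore_eq_bot (pCore_quotient_pCore 2 X) (sqt_quot hX)
    (KCongr.isKGroup_of_surjective hK _ q2_surj)]
  refine sSup_le fun M hM => ?_
  obtain ⟨L, hL, rfl⟩ := CC.exists_map_eq q2_surj solv_ker_q2 hM
  exact map_mono (le_sSup hL)

theorem CC.commutator_le_pCore (hX : IsStronglyQuasithin X) (hL : L ∈ calC X) (hK : K ∈ calC X)
    (hne : L ≠ K) : ⁅L, K⁆ ≤ pCore 2 X := by
  rw [← ker_q2, ← Subgroup.map_eq_bot_iff, map_commutator]
  exact CC.commutator_eq_bot (pCore_quotient_pCore 2 X) (sqt_quot hX) (CC.map hL q2_surj solv_ker_q2)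
    (CC.map hK q2_surj solv_ker_q2) fun e => hne (CC.map_inj solv_ker_q2 hL hK e)

/-- The normalizer of a perfect subnormal subgroup is the preimage of the normalizer of its image. -/
theorem comap_normalizer_map {Y : Type*} [Group Y] {f : X →* Y}
    (hk : Group.IsSolvable f.ker) (hp : ⁅L, L⁆ = L) (hL : L.IsSubnormal) :
    (normalizer (L.map f : Set Y)).comap f = normalizer (L : Set X) := by
  refine le_antisymm (le_normalizer_of_commutator_le hk hp hL ?_)
    (map_le_iff_le_comap.1 (le_normalizer_map f))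
  rw [← comap_map_eq, ← map_le_iff_le_comap, map_commutator]
  exact commutator_le_right_of_le_normalizer (map_comap_le _ _)

theorem CC.normal_or_index (hX : IsStronglyQuasithin X) (hL : L ∈ calC X) :
    L.Normal ∨ ((normalizer (L : Set X)).index = 2 ∧ IsSimpleGroup (L.map (q2 X)) ∧
      ∀ p : ℕ, p.Prime → p ≠ 2 → PRankLE p 1 (L.map (q2 X))) := by
  have h1 := comap_normalizer_map solv_ker_q2 hL.2.1 (CC.sub hL)
  have h2 := CC.map hL q2_surj solv_ker_q2
  refine (em _).imp_right fun hn => ?_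
  have h3 : ¬ (L.map (q2 X)).Normal := fun h => hn (by
    rw [← normalizer_eq_top_iff, ← h1, normalizer_eq_top_iff.2 h, comap_top])
  have h4 := fun p => CC.pRankLE_one (p := p) (pCore_quotient_pCore 2 X) (sqt_quot hX) h2 h3
  refine ⟨?_, CC.isSimpleGroup (pCore_quotient_pCore 2 X) h2 h4, h4⟩
  rw [← h1, index_comap_of_surjective _ q2_surj]
  exact CC.index_eq_two (pCore_quotient_pCore 2 X) (sqt_quot hX) h2 h3

theorem nonempty_quot_equiv_map (hL : L.IsSubnormal) :
    Nonempty (L ⧸ pCore 2 L ≃* L.map (q2 X)) := by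
  have h1 : ((q2 X).subgroupMap L).ker = pCore 2 L := by
    apply map_injective L.subtype_injective
    rw [map_pCore_eq_inf_of_isSubnormal hL]
    ext x
    constructor
    · rintro ⟨y, hy, rfl⟩
      exact ⟨(QuotientGroup.eq_one_iff _).1 (congrArg Subtype.val hy), y.2⟩
    · rintro ⟨hx, hx'⟩
      exact ⟨⟨x, hx'⟩, Subtype.ext ((QuotientGroup.eq_one_iff _).2 hx), rfl⟩
  exact ⟨(QuotientGroup.quotientMulEquivOfEq h1.symm).trans
    (QuotientGroup.quotientKerEquivOfSurjective _ ((q2 X).subgroupMap_surjective L))⟩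

end Cfsg.Lib.QT
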