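import Cfsg.Agent.QT.Struct
import Cfsg.Agent.S0542
import Cfsg.Agent.S1851

/-! Minimal perfect subnormal subgroups of overgroups of a Sylow `2`-subgroup. -/

set_option autoImplicit false

namespace Cfsg.Lib.QT

open Subgroup Cfsg.Lib.Solv Cfsg.Lib.Trans Cfsg.Lib.Local.MSS
open scoped Pointwise commutatorElement

universe u

variable {X : Type u} [Group X] [Finite X] {L K : Subgroup X}

omit [Finite X] in
theorem solv_subgroupOf {R : Subgroup X} (hR : Group.IsSolvable R) (M : Subgroup X) :
    Group.IsSolvable (R.subgroupOf M) :=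
  solv_of_map M.subtype (by rw [ker_subtype]; infer_instance)
    (isSolvable_of_le (by rw [subgroupOf_map_subtype]; exact inf_le_left) hR)

theorem solv_normalizer_sylow (S : Sylow 2 X) : Group.IsSolvable (normalizer (S : Set X)) :=
  Cor.isSolvable_of_normal_sylow_two (S.subtype le_normalizer) normal_in_normalizer

/-- A subgroup centralising a Sylow `2`-subgroup modulo a solvable subgroup is solvable. -/
theorem solv_of_commutator_sylow (S : Sylow 2 X) {R : Subgroup X} (hR : Group.IsSolvable R)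
    (hL : L ≤ normalizer (R : Set X)) (hS : (S : Subgroup X) ≤ normalizer (R : Set X))
    (h : ⁅L, (S : Subgroup X)⁆ ≤ R) : Group.IsSolvable L := by
  let f := QuotientGroup.mk' (R.subgroupOf (normalizer (R : Set X)))
  have h1 : (L.subgroupOf _).map f ≤ normalizer
      ((S.subtype hS).mapSurjective (f := f) (QuotientGroup.mk'_surjective _) : Set _) := by
    refine le_trans (commutator_eq_bot_iff_le_centralizer.1 ?_) (centralizer_le_normalizer _)
    rw [Sylow.coe_mapSurjective, ← map_commutator, Subgroup.map_eq_bot_iff, QuotientGroup.ker_mk',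
      commutator_le]
    exact fun a ha b hb => h (commutator_mem_commutator ha hb)
  have h2 := solv_of_map f (by rw [QuotientGroup.ker_mk']; exact solv_subgroupOf hR _)
    (isSolvable_of_le h1 (solv_normalizer_sylow _))
  rw [← map_subgroupOf_eq_of_le hL]
  exact solv_map _ h2

theorem le_of_commutator_sylow {D R : Subgroup X} (hD : K ≤ normalizer (D : Set X))
    (S : Sylow 2 K) (hp : ⁅L, L⁆ = L) (hLK : L ≤ K ⊔ D) (hR : Group.IsSolvable R)
    (hL : L ≤ normalizer (R : Set X))
    (hS : (S : Subgroup K).map K.subtype ≤ normalizer (R : Set X))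
    (h : ⁅L, (S : Subgroup K).map K.subtype⁆ ≤ R) : L ≤ D := by
  have := (normal_subgroupOf_iff_le_normalizer (le_sup_right : D ≤ K ⊔ D)).2
    (sup_le hD le_normalizer)
  let f := QuotientGroup.mk' (D.subgroupOf (K ⊔ D))
  let g := f.comp (inclusion (le_sup_left : K ≤ K ⊔ D))
  have hg : Function.Surjective g := by
    intro y
    obtain ⟨⟨x, hx⟩, rfl⟩ := QuotientGroup.mk'_surjective _ y
    obtain ⟨d, hd, k, hk, rfl⟩ := (Trans.mem_sup_of_le_normalizer hD).1 (sup_comm K D ▸ hx)
    refine ⟨⟨k, hk⟩, ?_⟩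
    have : f ⟨d, mem_sup_right hd⟩ = 1 := (QuotientGroup.eq_one_iff _).2 hd
    exact ((one_mul _).symm.trans (congrArg (· * _) this.symm)).trans (map_mul f _ _).symm
  have h1 : ((S.mapSurjective hg : Sylow 2 _) : Subgroup _) ≤
      (((S : Subgroup K).map K.subtype).subgroupOf (K ⊔ D)).map f := by
    rintro _ ⟨x, hx, rfl⟩
    exact ⟨_, ⟨x, hx, rfl⟩, rfl⟩
  have h2 : ∀ A : Subgroup X, A ≤ normalizer (R : Set X) → (A.subgroupOf (K ⊔ D)).map f ≤
      normalizer (((R.subgroupOf (K ⊔ D)).map f : Subgroup _) : Set _) := fun A hA =>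
    (map_mono ((comap_mono hA).trans (le_normalizer_comap _))).trans (le_normalizer_map f)
  have h3 := solv_of_commutator_sylow (S.mapSurjective hg) (solv_map f (solv_subgroupOf hR _))
    (h2 L hL) (h1.trans (h2 _ hS)) ((commutator_mono le_rfl h1).trans (by
      rw [← map_commutator]
      exact map_mono (commutator_le.2 fun a ha b hb => h (commutator_mem_commutator ha hb))))
  have h4 := perfect_le_ker_of_isSolvable (perfect_subgroupOf hp hLK) f h3
  rw [QuotientGroup.ker_mk'] at h4
  exact fun x hx => h4 (show (⟨x, hLK hx⟩ : (K ⊔ D : Subgroup X)) ∈ L.subgroupOf _ from hx)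

theorem le_normalizer_dc (K : Subgroup X) : K ≤ normalizer (dc K : Set X) := by
  refine le_trans ?_ (le_normalizer_comap _)
  rw [← map_le_iff_le_comap]
  exact le_normalizer.trans (Solv.normalizer_le_normalizer_centralizer _)

/-- A minimal perfect subnormal subgroup of an overgroup of a Sylow `2`-subgroup lies in one of the
whole group. -/
theorem exists_calC_ge (hX : perfectCore X ≤ sSup (calC X)) (T : Sylow 2 X) {B : Type*} [Group B]
    [Finite B] (f : B →* X) (hf : Function.Injective f) (hT : (T : Subgroup X) ≤ f.range)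
    {L : Subgroup B} (hL : L ∈ calC B) : ∃ K ∈ calC X, L.map f ≤ K := by
  have hp := perfect_map hL.2.1 f
  have hE := (le_perfectCore hp).trans hX
  obtain ⟨K, hK, h⟩ : ∃ K ∈ calC X, ¬ L.map f ≤ dc K := by
    by_contra! h
    exact CC.not_solv hL (solv_of_map f (by rw [(f.ker_eq_bot_iff).2 hf]; infer_instance)
      (isSolvable_of_le (hp.ge.trans (le_dc_iff.1 (hE.trans (sSup_le fun K hK =>
        le_dc_comm.1 (h K hK))))) (rad_solv X)))
  refine ⟨K, hK, ?_⟩
  rcases CC.le_or_le_dc hL ((CC.sub hK).comap f) with h1 | h1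
  · exact map_le_iff_le_comap.2 h1
  obtain ⟨S, hS⟩ := Agent.S0542.result 2 K (CC.sub hK) T
  have h2 : f.range ≤ normalizer ((rad B).map f : Set X) := by
    rw [MonoidHom.range_eq_map]
    exact (map_mono le_normalizer_of_normal).trans (le_normalizer_map f)
  have h3 : (S : Subgroup K).map K.subtype = (T : Subgroup X) ⊓ K := by rw [hS, subgroupOf_map_subtype]
  refine absurd (le_of_commutator_sylow (le_normalizer_dc K) S hp (hE.trans (sSup_le fun K' hK' => ?_))
    (solv_map f (rad_solv B)) ((map_le_range f L).trans h2) (h3 ▸ inf_le_left.trans (hT.trans h2))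
    ?_) h
  · by_cases e : K = K'
    · exact e ▸ le_sup_left
    · exact (CC.le_dc_of_ne hK hK' e).trans le_sup_right
  · refine le_trans (commutator_mono le_rfl ?_)
      ((map_commutator L (K.comap f) f).ge.trans (map_mono (le_dc_iff.1 (le_dc_comm.1 h1))))
    rw [h3, map_comap_eq]
    exact inf_le_inf_right K hT

theorem CC.of_equiv (hL : L ∈ calC X) {Y : Type*} [Group Y] [Finite Y] {K : Subgroup Y}
    (hK : K.IsSubnormal) (e : L ≃* K) : K ∈ calC Y := by
  have h1 : (⊤ : Subgroup L) ∈ calC L := CC.of_map_subtype (CC.sub hL) (by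
    rwa [← MonoidHom.range_eq_map, range_subtype])
  have h2 := CC.map h1 (f := e.toMonoidHom) e.surjective (by
    rw [(MonoidHom.ker_eq_bot_iff _).2 e.injective]; infer_instance)
  rw [map_top_of_surjective _ e.surjective] at h2
  have h3 : (⊤ : Subgroup K).map K.subtype = K := by rw [← MonoidHom.range_eq_map, range_subtype]
  refine CC.mk' (fun h0 => h2.1 (by rw [← map_eq_bot_iff_of_injective _ K.subtype_injective, h3, h0]))
    (by rw [← h3]; exact perfect_map h2.2.1 _) hK fun N hN h => ?_
  rw [← map_subgroupOf_eq_of_le h.le]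
  exact solv_map _ (CC.solv_of_lt h2 hN.subgroupOf
    (lt_top_iff_ne_top.2 fun h0 => h.not_ge (subgroupOf_eq_top.1 h0)))

/-- A minimal perfect subnormal subgroup of a member of `ℋ(T)` lies in `ℒ(G, T)`. -/
theorem mem_calL_of_calC (T : Sylow 2 X) {H : Subgroup X} (hH : H ∈ calH X)
    (hT : (T : Subgroup X) ≤ H) {K : Subgroup H} (hK : K ∈ calC H) :
    K.map H.subtype ∈ calL (T : Subgroup X) := by
  have h1 : K.map H.subtype ⊔ T ≤ H := sup_le (map_subtype_le _) hT
  refine ⟨CC.of_equiv hK ?_ ((equivMapOfInjective K _ H.subtype_injective).trans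
    (subgroupOfEquivOfLe le_sup_left).symm), ⟨T.subtype le_sup_right, rfl⟩, fun h => hH ?_⟩
  · convert (CC.sub hK).comap (inclusion h1) using 1
    ext x
    exact ⟨fun ⟨y, hy, e⟩ => mem_comap.2 ((show y = inclusion h1 x from Subtype.ext e) ▸ hy),
      fun h => ⟨_, h, rfl⟩⟩
  · rw [← pCoreOf_eq_bot_iff] at h ⊢
    exact eq_bot_iff.2 ((pCoreOf_le_pCoreOf_of_le ((pCoreOf_le_sylow T hT).trans le_sup_right)
      h1).trans h.le)

theorem exists_isMaximalTwoLocal {N : Subgroup X} (hN : IsTwoLocal N) :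
    ∃ M, IsMaximalTwoLocal M ∧ N ≤ M := by
  obtain ⟨M, h1, h2⟩ := Finite.exists_le_maximal hN
  exact ⟨M, ⟨h2.1, fun K hK h => le_antisymm (h2.2 hK h) h⟩, h1⟩

theorem isTwoLocal_normalizer_pCoreOf {H : Subgroup X} (hH : H ∈ calH X) :
    IsTwoLocal (normalizer (pCoreOf 2 H : Set X)) :=
  ⟨_, isPGroup_pCoreOf H, fun h => hH (pCoreOf_eq_bot_iff.1 h), rfl⟩

theorem mem_calH_of_isTwoLocal {M : Subgroup X} (hM : IsTwoLocal M) : M ∈ calH X := by
  obtain ⟨Q, h1, h2, rfl⟩ := hM
  exact fun h => h2 (eq_bot_iff.2 ((le_pCoreOf le_normalizer le_rfl h1).trans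
    (pCoreOf_eq_bot_iff.2 h).le))

/-- If a subgroup `A` with nontrivial `2`-core is normal in each maximal `2`-local subgroup over
`U`, its normalizer is the unique one. -/
theorem maxTwoLocalsContaining_eq {U A : Subgroup X} (hU : U ∈ calH X) (hA : A ∈ calH X)
    (h : ∀ M ∈ maxTwoLocalsContaining U, M ≤ normalizer (A : Set X)) :
    maxTwoLocalsContaining U = {normalizer (A : Set X)} := by
  refine Set.eq_singleton_iff_nonempty_unique_mem.2 ⟨?_, fun M hM => ?_⟩
  · obtain ⟨M, h1, h2⟩ := exists_isMaximalTwoLocal (isTwoLocal_normalizer_pCoreOf hU)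
    exact ⟨M, h1, (self_le_normalizer_pCoreOf U).trans h2⟩
  · exact le_antisymm (h M hM) ((normalizer_le_normalizer_pCoreOf A).trans
      (hM.1.2 _ (isTwoLocal_normalizer_pCoreOf hA)
        ((h M hM).trans (normalizer_le_normalizer_pCoreOf A))).le)

/-- With at most two conjugates, the conjugates under a Sylow `2`-subgroup generate a normal
subgroup. -/
theorem le_normalizer_conjClosure (T : Sylow 2 X) {M : Subgroup X} (hT : (T : Subgroup X) ≤ M)
    (hL : L ≤ M) (h : (L.subgroupOf M).Normal ∨ (normalizer (L.subgroupOf M : Set M)).index = 2) :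
    M ≤ normalizer (conjClosure L T : Set X) := by
  have key : ∀ g ∈ M, ∃ t ∈ (T : Subgroup X), t⁻¹ * g ∈ normalizer (L : Set X) := by
    intro g hg
    by_cases h1 : g ∈ normalizer (L : Set X)
    · exact ⟨1, one_mem _, by rwa [inv_one, one_mul]⟩
    rw [← subgroupOf_normalizer_eq hL] at h
    have h2 := h.resolve_left fun h => h1 ((normal_subgroupOf_iff_le_normalizer hL).1 h hg)
    obtain ⟨t, ht, h3⟩ : ∃ t ∈ ((T.subtype hT : Sylow 2 M) : Subgroup M),
        t ∉ (normalizer (L : Set X)).subgroupOf M := by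
      by_contra! h
      exact (T.subtype hT).not_dvd_index (h2.symm.dvd.trans (index_dvd_of_le h))
    exact ⟨t, ht, (mul_mem_iff_of_index_two h2 (a := t⁻¹) (b := ⟨g, hg⟩)).2
      (iff_of_false (fun h => h3 (inv_mem_iff.1 h)) h1)⟩
  intro g hg
  have h1 : MulAut.conj g • conjClosure L T ≤ conjClosure L T := by
    rw [conjClosure, conj_smul_iSup]
    refine iSup_le fun s => ?_
    obtain ⟨t, ht, h2⟩ := key _ (mul_mem hg (hT s.2))
    rw [map_conj_eq_smul, ← conj_mul_smul, ← mul_inv_cancel_left t (g * s), conj_mul_smul,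
      conj_smul_eq_of_mem_normalizer h2]
    exact le_iSup (fun t : (T : Subgroup X) => L.map (MulAut.conj (t : X)).toMonoidHom) ⟨t, ht⟩
  exact mem_normalizer_of_conj_mem fun x hx => h1 (conj_mem_conj_smul g hx)

end Cfsg.Lib.QT
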