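import Cfsg.Agent.QT.XiLoc
import Cfsg.Agent.QT.Uniq

/-!
The configuration `PD` in a strongly quasithin K-group with trivial `2`-core, and the passage from
the members of `Xi` to that configuration.
-/

set_option autoImplicit false
set_option linter.unusedSectionVars false
set_option linter.unusedVariables false

open Pointwise Cfsg Cfsg.Lib.Solv Cfsg.Lib.FT Cfsg.Lib.FT.BG4 Subgroup
open scoped commutatorElement

namespace Cfsg.Lib.QT

universe u

variable {G : Type u} [Group G] [Finite G] {p : ℕ} [hp : Fact p.Prime] {P S : Subgroup G}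

namespace PD

/-- `P` is not disjoint (modulo `P'`) from the derived group of a subgroup of index at most two. -/
theorem le_der (h : PD p P S) {N : Subgroup G} (hN : N = ⊤ ∨ N.index = 2) : P ≤ ⁅N, N⁆ := by
  have hNn : N.Normal := by
    rcases hN with rfl | hN
    · infer_instance
    · exact normal_of_index_eq_two hN
  have hPN : P ≤ N := by
    rcases hN with rfl | hN
    · exact le_top
    · exact le_of_coprime_card_index (hN ▸ (Nat.coprime_two_right.2 h.odd))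
  rcases h.irr' (U := P ⊓ ⁅N, N⁆) inf_le_left (normsI h.norm le_normalizer_of_normal) with e | e
  · exact e.ge.trans inf_le_right
  exfalso
  have h1 : ∀ s ∈ S, s ∈ N → ∀ x ∈ P, ⁅s, x⁆ ∈ ⁅P, P⁆ := fun s hs hsN x hx =>
    e (mem_inf.2 ⟨P.mul_mem ((memJ_norm (h.norm hs)).2 hx) (P.inv_mem hx),
      commutator_mem_commutator hsN (hPN hx)⟩)
  obtain ⟨z, hzS, hz⟩ := h.exists_inv
  obtain ⟨x, hx, hxZ⟩ := h.exists_not_mem
  have hzN : z ∉ N := fun hzN => hxZ (h.mem_of_sq_mem hx (by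
    have h2 := hz x hx
    have h3 := h1 z hzS hzN x hx
    have h5 : z * x * z⁻¹ = ⁅z, x⁆ * x := by rw [commutatorElement_def]; group
    rw [h5, ← mul_assoc, h.comm_Z hx h3, mul_assoc] at h2
    exact (mul_mem_cancel_left h3).1 h2))
  have hi : N.index = 2 := hN.resolve_left fun e' => hzN (e' ▸ mem_top z)
  refine h.not_line hx hxZ (normsP.2 fun s hs w hw => ?_)
  have h2 : ∀ s : G, ∀ y : G, s * y * s⁻¹ = ⁅s, y⁆ * y := fun s y => by
    rw [commutatorElement_def]; group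
  have h3 : s * x * s⁻¹ ∈ ⁅P, P⁆ ⊔ zpowers x := by
    by_cases hsN : s ∈ N
    · rw [h2]
      exact mul_mem (mem_sup_left (h1 s hs hsN x hx)) (mem_sup_right (mem_zpowers x))
    · have h4 : s * z⁻¹ ∈ N := (mul_mem_iff_of_index_two hi).2 (by simp [hsN, hzN])
      have h5 : s * x * s⁻¹ = s * z⁻¹ * (z * x * z⁻¹) * (s * z⁻¹)⁻¹ := by group
      have h6 : z * x * z⁻¹ = x⁻¹ * (x * (z * x * z⁻¹)) := by group
      rw [h5, h2]
      refine mul_mem (mem_sup_left (h1 _ (mul_mem hs (inv_mem hzS)) h4 _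
        ((memJ_norm (h.norm hzS)).2 hx))) ?_
      rw [h6]
      exact mul_mem (mem_sup_right (inv_mem (mem_zpowers x))) (mem_sup_left (hz x hx))
  have h4 : ⁅P, P⁆ ⊔ zpowers x ≤ (⁅P, P⁆ ⊔ zpowers x).comap (MulAut.conj s).toMonoidHom :=
    sup_le (fun a ha => mem_sup_left ((memJ_norm (h.normZ hs)).2 ha)) (zpowers_le.2 h3)
  exact h4 hw

/-- Main local result: `P` is normal or lies in the normal closure of a component. -/
theorem normal_or [Agent.Gate.QTOutR.{u}] (h : PD p P S) (h2 : pCore 2 G = ⊥)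
    (hq : IsStronglyQuasithin G) (hK : IsKGroup G) (T : Sylow 2 G) :
    P.Normal ∨ ∃ L L0 : Subgroup G, IsComponent L ∧ L0.Normal ∧ P ≤ L0 ∧ L0 ≤ L ⊔ T := by
  by_cases hE : P ≤ 𝐂 (layer G)
  · exact .inl (h.normal_of_cent_layer h2 hq hE)
  obtain ⟨L, hL, hPL⟩ : ∃ L : Subgroup G, IsComponent L ∧ ¬ P ≤ 𝐂 L := by
    by_contra hcon
    refine hE (centsC.1 (sSup_le fun L hL => centsC.1 ?_))
    by_contra h'
    exact hcon ⟨L, hL, h'⟩
  have hC := CC.of_isComponent hL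
  have hN : 𝐍 L = ⊤ ∨ (𝐍 L).index = 2 := by
    by_cases hn : L.Normal
    · exact .inl (normalizer_eq_top L)
    · exact .inr (CC.index_eq_two h2 hq hC hn)
  refine .inr ⟨L, normalClosure (L : Set G), hL, inferInstance, ?_, ?_⟩
  · rcases h.irr' (U := P ⊓ normalClosure (L : Set G)) inf_le_left
      (normsI h.norm le_normalizer_of_normal) with e | e
    · exact e.ge.trans inf_le_right
    exfalso
    have hperf : ⁅normalClosure (L : Set G), normalClosure (L : Set G)⁆ =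
        normalClosure (L : Set G) :=
      le_antisymm (der_sub _) (normalClosure_le_normal
        ((CC.perfect hC).ge.trans (dergS le_normalClosure)))
    have h3 := h.not_dvd_card (hq p hp.out h.ne2) hperf e
    have h4 := ((Agent.Gate.QTOutR.out L hK hq hL.2 (odd_card_center h2 hL.1)).2 p hp.out
      fun hd => h3 (hd.trans (cardSg le_normalClosure))).2
    exact hPL fun x hx => h4 x (h.le_der hN hx) ⟨1, by rw [pow_one, h.pow_eq_one hx]⟩
  · have h3 : ∀ g : G, ∃ t ∈ (T : Subgroup G), t⁻¹ * g ∈ 𝐍 L := fun g => by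
      by_cases hg : g ∈ 𝐍 L
      · exact ⟨1, one_mem _, by simpa using hg⟩
      have hi : (𝐍 L).index = 2 := hN.resolve_left fun e' => hg (e' ▸ mem_top g)
      have h4 : ¬ (T : Subgroup G) ≤ 𝐍 L := fun hle =>
        T.not_dvd_index (hi.symm.dvd.trans (index_dvd_of_le hle))
      obtain ⟨t, ht, htN⟩ := SetLike.not_le_iff_exists.1 h4
      exact ⟨t, ht, (mul_mem_iff_of_index_two hi).2 (by simp [hg, htN])⟩
    refine (closure_le _).2 fun x hx => ?_
    obtain ⟨a, ha, hax⟩ := Group.mem_conjugatesOfSet_iff.1 hx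
    obtain ⟨g, rfl⟩ := isConj_iff.1 hax
    obtain ⟨t, ht, htg⟩ := h3 g
    have h5 : g * a * g⁻¹ = t * (t⁻¹ * g * a * (t⁻¹ * g)⁻¹) * t⁻¹ := by group
    rw [h5]
    exact mul_mem (mul_mem (mem_sup_right ht) (mem_sup_left ((memJ_norm htg).2 ha)))
      (inv_mem (mem_sup_right ht))

end PD

theorem mem_oddGenerated {X : Subgroup G} {x : G} (hx : x ∈ X) (ho : Odd (orderOf x)) :
    x ∈ oddGenerated X := subset_closure ⟨hx, ho⟩

theorem oddGenerated_le_iff {X K : Subgroup G} :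
    oddGenerated X ≤ K ↔ ∀ x ∈ X, Odd (orderOf x) → x ∈ K :=
  (closure_le _).trans ⟨fun h x hx ho => h ⟨hx, ho⟩, fun h x hx => h x hx.1 hx.2⟩

theorem norm_oddGenerated (X : Subgroup G) : 𝐍 X ≤ 𝐍 (oddGenerated X) :=
  normsP.2 fun g hg x hx => by
    have : oddGenerated X ≤ (oddGenerated X).comap (MulAut.conj g).toMonoidHom :=
      oddGenerated_le_iff.2 fun y hy ho =>
        mem_oddGenerated ((memJ_norm hg).2 hy) (by rwa [← orderJ g y] at ho)
    exact this hx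

theorem exists_pow_mem_of_norm {r : ℕ} {K Q : Subgroup G} (hQ : IsPGroup r Q) (hn : Q ≤ 𝐍 K)
    {x : G} (hx : x ∈ K ⊔ Q) : ∃ k : ℕ, x ^ r ^ k ∈ K := by
  obtain ⟨a, ha, b, hb, rfl⟩ := (PG.mem_sup_iff_of_le_normalizer hn).1 hx
  obtain ⟨k, hk⟩ := hQ ⟨b, hb⟩
  obtain ⟨a', ha', e⟩ := exists_mul_pow_eq ha (hn hb) (r ^ k)
  refine ⟨k, ?_⟩
  rw [e, show b ^ r ^ k = 1 from congrArg Subtype.val hk, mul_one]
  exact ha'

/-- The members of `Xi` give rise to the configuration `PD`. -/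
theorem exists_PD {T X : Subgroup G} (hT : IsSylowOf 2 T ⊤) (hX : X ∈ Xi T) :
    ∃ (p : ℕ) (_ : Fact p.Prime) (P : Subgroup G), PD p P (T ⊓ 𝐍 P) ∧ P ≤ X ∧
      piCoreOf {2} X ⊔ P = X ∧ ∀ K : Subgroup G, X ≤ 𝐍 K → P ≤ K → X ≤ K := by
  have : Fact (Nat.Prime 2) := ⟨Nat.prime_two⟩
  obtain ⟨h1, h2, h3, ⟨p, hp, hp2, h4⟩, h5⟩ := hX
  have : Fact p.Prime := ⟨hp⟩
  obtain ⟨P, hP⟩ := Sylow_exists p X
  have hPX := pHall_sub hP
  have hPp := Sylow_pgroup hP
  set Q := piCoreOf {2} X with hQ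
  have hQ2 : IsPGroup 2 Q := pcore_isPGroup 2 X
  have hQe : Q = (pCore 2 X).map X.subtype := pcore_eq_map 2 X
  have hQX : Q ⊲ X := pcore_normal _ X
  have hQm : ∀ x : X, (x : G) ∈ Q ↔ x ∈ pCore 2 X := fun x => by
    rw [hQe]; exact mem_map_iff_mem Subtype.val_injective
  have hV : IsPGroup p (X ⧸ pCore 2 X) := by
    rcases h4 with h | h <;> exact IsPGroup.of_card h.1
  have hpow : ∀ x ∈ X, ∃ k : ℕ, x ^ p ^ k ∈ Q := fun x hx => by
    obtain ⟨k, hk⟩ := hV ((⟨x, hx⟩ : X) : X ⧸ pCore 2 X)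
    rw [← QuotientGroup.mk_pow, QuotientGroup.eq_one_iff, ← hQm] at hk
    exact ⟨k, hk⟩
  have hQP : Q ⊔ P = X := le_antisymm (sup_le hQX.le hPX) (le_sup_Sylow_of_forall_pow_mem hP hpow)
  have hTI : Q ⊓ P = ⊥ := coprime_TIg (pgroup_coprime_of_ne hQ2 hPp hp2.symm)
  have hPQ : P ≤ 𝐍 Q := hPX.trans hQX.norm
  let f : P →* X ⧸ pCore 2 X := (QuotientGroup.mk' _).comp (inclusion hPX)
  have hf : Function.Bijective f := by
    constructor
    · rw [injective_iff_map_eq_one]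
      intro a ha
      have h6 : (a : G) ∈ Q ⊓ P :=
        ⟨(hQm (inclusion hPX a)).2 ((QuotientGroup.eq_one_iff _).1 ha), a.2⟩
      rw [hTI] at h6
      exact Subtype.ext h6
    · intro v
      obtain ⟨x, rfl⟩ := QuotientGroup.mk_surjective v
      obtain ⟨a, ha, b, hb, e⟩ := (PG.mem_sup_iff_of_le_normalizer hPQ).1 (hQP.ge x.2)
      refine ⟨⟨b, hb⟩, ?_⟩
      have h6 : x = ⟨a, hQX.le ha⟩ * inclusion hPX ⟨b, hb⟩ := Subtype.ext e
      rw [h6, QuotientGroup.mk_mul, (QuotientGroup.eq_one_iff _).2 ((hQm ⟨a, hQX.le ha⟩).1 ha),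
        one_mul]
      rfl
  let e := MulEquiv.ofBijective f hf
  have hab : IsMulCommutative (X ⧸ pCore 2 X) ↔ ⁅P, P⁆ = ⊥ := by
    rw [← abelian_iff_der]
    exact ⟨fun h => ⟨⟨fun a b => e.injective (by rw [map_mul, map_mul, h.is_comm.comm])⟩⟩,
      fun h => ⟨⟨fun a b => e.symm.injective (by rw [map_mul, map_mul, h.is_comm.comm])⟩⟩⟩
  have hcard : (Nat.card P = p ^ 2 ∧ ⁅P, P⁆ = ⊥ ∧ ∀ x ∈ P, x ^ p = 1) ∨
      (Nat.card P = p ^ 3 ∧ ⁅P, P⁆ ≠ ⊥) := by
    rw [Nat.card_congr e.toEquiv, ne_eq, ← hab]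
    refine h4.imp_left fun h => ⟨h.1, h.2.1, fun x hx => ?_⟩
    have : (⟨x, hx⟩ : P) ^ p = 1 := e.injective (by rw [map_pow, h.2.2, map_one])
    exact congrArg Subtype.val this
  have hTQ : T ≤ 𝐍 Q := norms_pcore _ h2
  have hQT : Q ≤ T := norm_sub_Hall hT (pgroup_iff.2 hQ2) le_top hTQ
  have hTS : T ≤ Q ⊔ (T ⊓ 𝐍 P) := fun t ht => by
    obtain ⟨g, hg, e1⟩ := Sylow_trans hP ((pHallJnorm (h2 ht)).2 hP)
    obtain ⟨a, ha, b, hb, rfl⟩ := (PG.mem_sup_iff_of_le_normalizer hPQ).1 (hQP.ge hg)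
    have h6 : a⁻¹ * t ∈ 𝐍 P := by
      rw [normP, map_mul, mul_smul, e1, map_mul, mul_smul, conjGid hb, map_inv, inv_smul_smul]
    rw [show t = a * (a⁻¹ * t) by group]
    exact mul_mem (mem_sup_left ha) (mem_sup_right ⟨T.mul_mem (T.inv_mem (hQT ha)) ht, h6⟩)
  have hded : ∀ U ≤ P, (Q ⊔ U) ⊓ P ≤ U := fun U hU x hx => by
    obtain ⟨a, ha, b, hb, rfl⟩ := (PG.mem_sup_iff_of_le_normalizer (hU.trans hPQ)).1 hx.1
    have h6 : a ∈ Q ⊓ P := ⟨ha, (mul_mem_cancel_right (hU hb)).1 hx.2⟩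
    rw [hTI, mem_bot] at h6
    rwa [h6, one_mul]
  have hPhi : twoPhiCore X ≤ Q ⊔ ⁅P, P⁆ := by
    rintro _ ⟨x, hx, rfl⟩
    have h6 : frattini (X ⧸ pCore 2 X) ≤ (_root_.commutator P).map f := by
      rw [frattini_le_iff_of_isPGroup hV]
      refine ⟨?_, fun v => ?_⟩
      · rw [_root_.commutator_def, _root_.commutator_def, map_commutator, map_top_of_surjective f hf.2]
      · obtain ⟨y, rfl⟩ := hf.2 v
        refine ⟨y ^ p, ?_, map_pow f y p⟩
        have := PD.pow_mem_of_card hcard y.2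
        rw [← map_commutator_top] at this
        exact (mem_map_iff_mem Subtype.val_injective).1 this
    obtain ⟨y, hy, e1⟩ := h6 hx
    have h7 : (y : G) ∈ ⁅P, P⁆ := by rw [← map_commutator_top]; exact mem_map_of_mem _ hy
    have h8 : x * (inclusion hPX y)⁻¹ ∈ pCore 2 X := by
      rw [← QuotientGroup.eq_one_iff, QuotientGroup.mk_mul, QuotientGroup.mk_inv,
        mul_inv_eq_one]
      exact e1.symm
    have h9 : (x : G) = (x * (inclusion hPX y)⁻¹ : X) * (y : G) := by simp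
    rw [coe_subtype, h9]
    exact mul_mem (mem_sup_left ((hQm _).2 h8)) (mem_sup_right h7)
  refine ⟨p, ⟨hp⟩, P, ⟨hp2, isPGroupS inf_le_left (Sylow_pgroup hT), inf_le_right, hcard,
    fun U hZU hUP hU => ?_⟩, hPX, hQP, fun K hXK hPK => ?_⟩
  · rcases h5 (Q ⊔ U) (hPhi.trans (sup_le_sup_left hZU Q)) (sup_le hQX.le (hUP.trans hPX))
      (hTS.trans (sup_le (normsG le_sup_left) (normsY (inf_le_left.trans hTQ) hU))) with e1 | e1
    · exact .inl (le_antisymm ((le_inf (le_sup_right.trans (e1.le.trans hPhi)) hUP).trans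
        (hded _ (der_sub P))) hZU)
    · exact .inr (le_antisymm hUP ((le_inf (hPX.trans e1.ge) le_rfl).trans (hded U hUP)))
  · refine h1.ge.trans (oddGenerated_le_iff.2 fun x hx ho => ?_)
    obtain ⟨k, hk⟩ := hpow x hx
    obtain ⟨m, hm⟩ := hQ2 ⟨_, hk⟩
    have h6 : x ^ p ^ k = 1 := by
      refine eq_one_of_pow_coprime (m := 2 ^ m) (n := orderOf x)
        (Nat.Coprime.pow_left m (Nat.coprime_two_left.2 ho)) (congrArg Subtype.val hm) ?_
      rw [← pow_mul, mul_comm, pow_mul, pow_orderOf_eq_one, one_pow]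
    have h7 : IsPGroup p (zpowers x) := by
      rintro ⟨_, n, rfl⟩
      refine ⟨k, Subtype.ext ?_⟩
      show (x ^ n) ^ p ^ k = 1
      rw [← zpow_natCast, ← zpow_mul, mul_comm, zpow_mul, zpow_natCast, h6, one_zpow]
    obtain ⟨g, hg, hle⟩ := Sylow_Jsub hP (zpowers_le.2 hx) h7
    exact (memJ_norm (hXK hg)).1 (hPK (hle (Coprime.conj_mem_conj_smul g (mem_zpowers x))))

/-- Every maximal `2`-local subgroup over `X T` normalises `X`. -/
theorem le_normalizer_of_XiStar [Agent.Gate.QTOutR.{u}] [IsSimpleGroup G]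
    (hG : ¬ IsMulCommutative G) (hQ : IsQTKE G) (T : Sylow 2 G) {X : Subgroup G}
    (hX : X ∈ XiStar (T : Subgroup G)) {M : Subgroup G} (hM : M ∈ calH G)
    (hle : X ⊔ (T : Subgroup G) ≤ M) : M ≤ 𝐍 X := by
  have : Fact (Nat.Prime 2) := ⟨Nat.prime_two⟩
  obtain ⟨p, _, P, hP, hPX, hQP, hK⟩ := exists_PD (Sylow_top T) hX.1
  have hXM : X ≤ M := le_sup_left.trans hle
  have hTM : (T : Subgroup G) ≤ M := le_sup_right.trans hle
  have hPM : P ≤ M := hPX.trans hXM
  have h1 := (hP.subgroupOf hPM (inf_le_left.trans hTM)).map (q2 M) (by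
    rw [ker_q2]
    exact coprime_TIg (pgroup_coprime_of_ne (hP.isP.comap_subtype) (pCore_isPGroup 2 M) hP.ne2))
  have hOT : pCore 2 M ≤ (T : Subgroup G).subgroupOf M := pCore_le_sylow (T.subtype hTM)
  have hlift : ∀ N : Subgroup (M ⧸ pCore 2 M), N.Normal → (P.subgroupOf M).map (q2 M) ≤ N →
      M ≤ 𝐍 ((N.comap (q2 M)).map M.subtype) ∧ X ≤ (N.comap (q2 M)).map M.subtype :=
    fun N hN hPN => by
      have h2 := (normal_map_subtype (N.comap (q2 M)) (hN.comap _)).norm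
      refine ⟨h2, hK _ (hXM.trans h2) ?_⟩
      rw [← map_subgroupOf_eq_of_le hPM]
      exact map_mono (map_le_iff_le_comap.1 hPN)
  rcases h1.normal_or (pCore_quotient_pCore 2 M) (sqt_quot (sqt_of_mem_calH hQ.1 hM))
    (KCongr.isKGroup_of_surjective (isKGroup_of_mem_calH hG hQ.2.1 hM) _ q2_surj)
    ((T.subtype hTM).mapSurjective q2_surj) with hn | ⟨L, L0, hL, hL0, h2, h3⟩
  · obtain ⟨h2, h3⟩ := hlift _ hn le_rfl
    have h4 : oddGenerated ((((P.subgroupOf M).map (q2 M)).comap (q2 M)).map M.subtype) = X := by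
      refine le_antisymm (oddGenerated_le_iff.2 fun x hx ho => ?_)
        (hX.1.1.ge.trans (oddGenerated_le_iff.2 fun x hx ho => mem_oddGenerated (h3 hx) ho))
      rw [comap_map_eq, ker_q2, Subgroup.map_sup, map_subgroupOf_eq_of_le hPM] at hx
      have h5 : (pCore 2 M).map M.subtype ≤ T := map_le_iff_le_comap.2 hOT
      obtain ⟨k, hk⟩ := exists_pow_mem_of_norm T.isPGroup' hX.1.2.1 (sup_le_sup hPX h5 hx)
      exact mem_of_pow_mem_of_coprime hk (Nat.Coprime.pow_right k (Nat.coprime_two_right.2 ho))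
    rw [← h4]
    exact h2.trans (norm_oddGenerated _)
  · exfalso
    obtain ⟨K, hKC, rfl⟩ := CC.exists_map_eq q2_surj solv_ker_q2 (CC.of_isComponent hL)
    obtain ⟨e1⟩ := nonempty_quot_equiv_map (CC.sub hKC)
    have e2 := K.equivMapOfInjective M.subtype Subtype.val_injective
    have e3 := QuotientGroup.congr (pCore 2 K) (pCore 2 (K.map M.subtype)) e2 (map_pCore_equiv e2)
    refine hX.2 _ (mem_calL_of_calC T hM hTM hKC) (Trans.IsQuasisimple.of_mulEquiv hL.2 (e1.symm.trans e3))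
      (sup_le ((hlift L0 hL0 h2).2.trans ?_) le_sup_right)
    rw [Sylow.coe_mapSurjective, Sylow.coe_subtype, ← Subgroup.map_sup] at h3
    refine (map_mono (comap_mono h3)).trans ?_
    rw [comap_map_eq, ker_q2, sup_assoc, sup_eq_left.2 hOT, Subgroup.map_sup,
      map_subgroupOf_eq_of_le hTM]

theorem mem_calH_of_Xi (hE : IsOfEvenCharacteristic G) (T : Sylow 2 G) {X : Subgroup G}
    (hX : X ∈ Xi (T : Subgroup G)) : X ∈ calH G := fun h => by
  have : Fact (Nat.Prime 2) := ⟨Nat.prime_two⟩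
  obtain ⟨p, _, P, hP, hPX, hQP, -⟩ := exists_PD (Sylow_top T) hX
  have h1 := Agent.S1851.charP_over hE T (le_sup_right : _ ≤ X ⊔ (T : Subgroup G)) hX.2.2.1
  have h2 : piCoreOf {2} X = ⊥ := by rw [pcore_eq_map, h, Subgroup.map_bot]
  rw [h2, bot_sup_eq] at hQP
  subst hQP
  have h3 := Local.isPGroup_pCoreOf (p := 2) (P ⊔ (T : Subgroup G))
  have h4 : P ⊓ pCoreOf 2 (P ⊔ (T : Subgroup G)) = ⊥ :=
    coprime_TIg (pgroup_coprime_of_ne hP.isP h3 hP.ne2)
  have h5 := TI_cents (le_sup_left.trans (Local.le_normalizer_pCoreOf _))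
    ((Local.pCoreOf_le _).trans (normalYl hX.2.1).norm) h4
  exact hP.ne_bot (le_bot_iff.1 ((le_inf le_rfl ((le_inf le_sup_left h5).trans h1)).trans h4.le))

end Cfsg.Lib.QT
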