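import Cfsg.Agent.QT.Cyc1
import Cfsg.Agent.FT.BG4.Elem
import Cfsg.Agent.Spor.RuTits

/-!
# The Tits group and the Rudvalis group have 3-rank at least two
-/

set_option autoImplicit false
set_option maxRecDepth 100000

namespace Cfsg.Lib.QT

open Cfsg.Lib.Known Cfsg.Lib.Spor

theorem not_rank_tits : ¬ PRankLE 3 1 Lie.TitsGroup := by
  have : Finite Lie.TitsGroup := Nat.finite_of_card_ne_zero (by rw [tt_card]; decide)
  obtain ⟨y, -, hy⟩ := tj_1 tj_y (by simp)
  obtain ⟨c, -, hc⟩ := tj_1 tj_c (by simp)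
  have o : tt_M.R ti_O.one 1 := tt_has.one ▸ tt_M.R_one
  have c3 : c ^ 3 = 1 := tt_has.eq_of (tt_has.R_pow hc 3) o (by decide +kernel)
  have c1 : c ≠ 1 := tt_has.ne (b := 0x1000000000000000000000000000000000000000000000000000000000000000000000000) hc o (by decide +kernel)
  refine not_rank_one Nat.prime_three (tt_has.cj hy hc hc (by decide +kernel))
    (tt_has.eq_of (tt_has.R_pow hy 3) o (by decide +kernel)) c3 c1 fun h => ?_
  have := Fact.mk Nat.prime_three
  obtain ⟨n, hn, e⟩ := Finset.mem_image.1 (mem_zpowers_iff_mem_range_orderOf.1 h)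
  rw [orderOf_eq_prime c3 c1, Finset.mem_range] at hn
  have k : ∀ n < 3, y ≠ c ^ n := fun n hn =>
    tt_has.ne (b := 0x1000000000000000000000000000000000000000000000000000000000000000000000000)
      hy (tt_has.R_pow hc n) (by revert n; decide +kernel)
  exact k n hn e.symm

theorem not_rank_of_isoTits {K : Type*} [Group K] (h : Lie.IsoTits K) : ¬ PRankLE 3 1 K := fun e =>
  h.elim fun f => not_rank_tits (FT.BG4.pRankLE_of_injective e f.symm.toMonoidHom f.symm.injective)

theorem not_rank_Ru : ¬ PRankLE 3 1 Spor.Ru := fun e => by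
  obtain ⟨θ, hθ⟩ := Ru.exists_tits
  exact not_rank_tits (FT.BG4.pRankLE_of_injective e
    (Ru.ruEquiv.symm.toMonoidHom.comp ((Subgroup.subtype _).comp θ))
    (Ru.ruEquiv.symm.injective.comp (Subtype.val_injective.comp hθ)))

theorem not_rank_of_isoRu {K : Type*} [Group K] (h : Spor.IsoRu K) : ¬ PRankLE 3 1 K := fun e =>
  h.elim fun f => not_rank_Ru (FT.BG4.pRankLE_of_injective e f.symm.toMonoidHom f.symm.injective)

end Cfsg.Lib.QT
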