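import Cfsg.Agent.QT.Lift
import Cfsg.Agent.Local.CTwoPres

/-! The presented groups `Fi₂₂`, `Fi₂₃`, `Fi₂₄'`, `B`, `M`, `Th` have `3`-rank at least three
unless they are commutative. -/

set_option autoImplicit false

namespace Cfsg.Lib.QT

open Subgroup Cfsg.Spor Cfsg.Lib.CTwoList

section cox

variable {α : Type} [DecidableEq α] {E : List (α × ℕ × α)} {X : List (FreeGroup α)}

theorem comm_of_edge (hn : ∀ z, z ∈ coxNodes E) {x y : α} (hxy : o E X x = o E X y) (l : List α)
    (h : (∀ z ∈ coxNodes E, z ∈ x :: y :: l) ∧ ∀ i : Fin l.length,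
      (∃ u ∈ x :: y :: l.take i, coxLabel E l[i] u = 2) ∧
        ∃ u ∈ x :: y :: l.take i, coxLabel E l[i] u = 3 := by decide) :
    IsMulCommutative (CoxPresented α E X) := by
  have key : ∀ n, ∀ u ∈ x :: y :: l.take n, o E X u = o E X x := by
    intro n
    induction n with
    | zero => simp [hxy]
    | succ n ih =>
      by_cases hl : n < l.length
      · obtain ⟨⟨u, hu, h2⟩, v, hv, h3⟩ := h.2 ⟨n, hl⟩
        have := (step ((ih u hu).trans (ih v hv).symm) _ ⟨hn _, hn _, hn _, h2, h3⟩).trans (ih v hv)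
        intro w hw
        rw [List.take_succ_eq_append_getElem hl, ← List.cons_append, ← List.cons_append,
          List.mem_append, List.mem_singleton] at hw
        exact hw.elim (ih w) fun e => e ▸ this
      · rwa [List.take_of_length_le (by omega), ← List.take_of_length_le (not_lt.1 hl)]
  exact comm_of_eq x fun z => key l.length z (by rw [List.take_length]; exact h.1 z (hn z))

theorem walk_mem (hn : ∀ z, z ∈ coxNodes E) (x : α) (l : List α)
    (h : List.IsChain (fun a b => coxLabel E a b = 3) (x :: l) := by decide) :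
    ∀ y ∈ l, o E X x * o E X y ∈ commutator (CoxPresented α E X) := by
  induction l generalizing x with
  | nil => simp
  | cons a l ih =>
    rw [List.isChain_cons_cons] at h
    have h1 := edge_mem (X := X) x a ⟨hn _, hn _, h.1⟩
    exact List.forall_mem_cons.2 ⟨h1, fun y hy => edge_trans h1 (ih a h.2 y hy) (hn _)⟩

theorem commute_o (hn : ∀ z, z ∈ coxNodes E) {x y : α} (h : coxLabel E x y = 2) :
    Commute (o E X x) (o E X y) :=
  comm_of_sq (sq x (hn x)) (sq y (hn y)) (rel x y 2 ⟨hn x, hn y, h⟩)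

theorem rankThree_cox (hn : ∀ z, z ∈ coxNodes E) (H : Subgroup (CoxPresented α E X))
    {w : CoxPresented α E X} (hw : w * w = 1) {a b c d e f : α}
    (hm : ∀ x ∈ [a, b, c, d, e, f], Commute w (o E X x) ∧ w * o E X x ∈ H)
    (nab : o E X a ≠ o E X b) (ncd : o E X c ≠ o E X d) (nef : o E X e ≠ o E X f)
    (h : coxLabel E a b = 3 ∧ coxLabel E c d = 3 ∧ coxLabel E e f = 3 ∧
      (∀ x ∈ [a, b], ∀ y ∈ [c, d, e, f], coxLabel E x y = 2) ∧
      ∀ x ∈ [c, d], ∀ y ∈ [e, f], coxLabel E x y = 2 := by decide) : RankThree H := by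
  have m : ∀ {x y}, x ∈ [a, b, c, d, e, f] → w * o E X x * (w * o E X y) = o E X x * o E X y :=
    fun hx => by rw [(hm _ hx).1.symm.mul_mul_mul_comm, hw, one_mul]
  have s : ∀ {x} (hx : x ∈ [a, b, c, d, e, f]),
      (⟨_, (hm x hx).2⟩ : H) * ⟨_, (hm x hx).2⟩ = 1 := fun hx =>
    Subtype.ext ((m hx).trans (sq _ (hn _)))
  have t : ∀ {x y} (hx : x ∈ [a, b, c, d, e, f]) (hy : y ∈ [a, b, c, d, e, f]),
      coxLabel E x y = 3 → ((⟨_, (hm x hx).2⟩ : H) * ⟨_, (hm y hy).2⟩) ^ 3 = 1 := fun hx hy h =>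
    Subtype.ext ((congrArg (· ^ 3) (m hx)).trans (rel _ _ 3 ⟨hn _, hn _, h⟩))
  have n : ∀ {x y} (hx : x ∈ [a, b, c, d, e, f]) (hy : y ∈ [a, b, c, d, e, f]),
      o E X x ≠ o E X y → (⟨_, (hm x hx).2⟩ : H) ≠ ⟨_, (hm y hy).2⟩ := fun hx hy h e =>
    h (mul_left_cancel (congrArg Subtype.val e))
  have k : ∀ {x y} (hx : x ∈ [a, b, c, d, e, f]) (hy : y ∈ [a, b, c, d, e, f]),
      coxLabel E x y = 2 → Commute (⟨_, (hm x hx).2⟩ : H) ⟨_, (hm y hy).2⟩ := fun hx hy h =>
    Subtype.ext ((m hx).trans ((commute_o hn h).eq.trans (m hy).symm))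
  obtain ⟨h1, h2, h3, h4, h5⟩ := h
  simp only [List.forall_mem_cons] at h4 h5
  have ha : a ∈ [a, b, c, d, e, f] := by simp
  have hb : b ∈ [a, b, c, d, e, f] := by simp
  have hc : c ∈ [a, b, c, d, e, f] := by simp
  have hd : d ∈ [a, b, c, d, e, f] := by simp
  have he : e ∈ [a, b, c, d, e, f] := by simp
  have hf : f ∈ [a, b, c, d, e, f] := by simp
  exact rankThree_of_pairs (s ha) (s hb) (s hc) (s hd) (s he) (s hf) (t ha hb h1) (t hc hd h2)
    (t he hf h3) (n ha hb nab) (n hc hd ncd) (n he hf nef) (k ha hc h4.1.1) (k ha hd h4.1.2.1)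
    (k ha he h4.1.2.2.1) (k ha hf h4.1.2.2.2.1) (k hb hc h4.2.1.1) (k hb hd h4.2.1.2.1)
    (k hb he h4.2.1.2.2.1) (k hb hf h4.2.1.2.2.2.1) (k hc he h5.1.1) (k hc hf h5.1.2.1)
    (k hd he h5.2.1.1) (k hd hf h5.2.1.2.1)

theorem rankThree_top (hn : ∀ z, z ∈ coxNodes E) {a b c d e f : α}
    (nab : o E X a ≠ o E X b) (ncd : o E X c ≠ o E X d) (nef : o E X e ≠ o E X f)
    (h : coxLabel E a b = 3 ∧ coxLabel E c d = 3 ∧ coxLabel E e f = 3 ∧
      (∀ x ∈ [a, b], ∀ y ∈ [c, d, e, f], coxLabel E x y = 2) ∧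
      ∀ x ∈ [c, d], ∀ y ∈ [e, f], coxLabel E x y = 2 := by decide) :
    RankThree (CoxPresented α E X) :=
  (rankThree_cox hn ⊤ (one_mul 1) (fun _ _ => ⟨Commute.one_left _, mem_top _⟩) nab ncd nef h).map
    (Subgroup.subtype _) Subtype.val_injective

end cox

theorem rankThree_Fi22 (h : ¬ IsMulCommutative Fi22) : RankThree Fi22 := by
  have hn : ∀ z, z ∈ coxNodes Fi22.edges := fun z => by cases z <;> decide
  open Fi22.Gen in
  exact rankThree_top hn (fun k => h (comm_of_edge hn (x := a) (y := b) k [c, d, e, f, g, .h, i]))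
    (fun k => h (comm_of_edge hn (x := g) (y := f) k [e, d, c, b, a, .h, i]))
    fun k => h (comm_of_edge hn (x := i) (y := .h) k [d, c, b, a, e, f, g])

theorem rankThree_Fi23 (h : ¬ IsMulCommutative Fi23) : RankThree Fi23 := by
  have hn : ∀ z, z ∈ coxNodes Fi23.edges := fun z => by cases z <;> decide
  open Fi23.Gen in
  exact rankThree_top hn (fun k => h (comm_of_edge hn (x := a) (y := b) k [c, d, e, f, g, j, .h, i]))
    (fun k => h (comm_of_edge hn (x := g) (y := f) k [e, d, c, b, a, j, .h, i]))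
    fun k => h (comm_of_edge hn (x := i) (y := .h) k [d, c, b, a, e, f, g, j])

theorem rankThree_B (h : ¬ IsMulCommutative BabyMonster) : RankThree BabyMonster := by
  have hn : ∀ z, z ∈ coxNodes BabyMonster.edges := fun z => by cases z <;> decide
  open BabyMonster.Gen in
  exact rankThree_top hn
    (fun k => h (comm_of_edge hn (x := t1) (y := t2) k [t3, t4, t5, t6, t7, t8, t9, t10, t11]))
    (fun k => h (comm_of_edge hn (x := t8) (y := t7) k [t6, t5, t4, t3, t2, t1, t9, t10, t11]))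
    fun k => h (comm_of_edge hn (x := t11) (y := t10) k [t9, t5, t4, t3, t2, t1, t6, t7, t8])

theorem rankThree_Fi24 (h : ¬ IsMulCommutative Fi24') : RankThree Fi24' := by
  have hn : ∀ z, z ∈ coxNodes Fi24.edges := fun z => by cases z <;> decide
  have h' : ¬ IsMulCommutative Fi24 := fun k => h (comm_sub k _)
  open Fi24.Gen in
  have hw := walk_mem (X := Fi24.extra) hn j [g, f, e, d, .h, i, .h, d, c, b, a, k, l]
  open Fi24.Gen in
  refine rankThree_cox hn _ (sq j (hn _)) (fun x hx => ⟨commute_o hn ?_, hw x ?_⟩)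
    (fun q => h' (comm_of_edge hn (x := l) (y := k) q [a, b, c, d, e, f, g, j, .h, i]))
    (fun q => h' (comm_of_edge hn (x := b) (y := c) q [a, k, l, d, e, f, g, j, .h, i]))
    fun q => h' (comm_of_edge hn (x := i) (y := .h) q [d, c, b, a, k, l, e, f, g, j])
  all_goals revert x; decide

theorem rankThree_M (h : ¬ IsMulCommutative Monster) : RankThree Monster := by
  have hn : ∀ z, z ∈ coxNodes Bimonster.edges := fun z => by cases z <;> decide
  have h' : ¬ IsMulCommutative Bimonster := fun k => h (comm_sub k _)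
  open Bimonster.Gen in
  have hw := walk_mem (X := Bimonster.extra) hn f1
    [e1, d1, c1, b1, a, b2, c2, d2, c2, b2, a, b3, c3, d3]
  open Bimonster.Gen in
  refine rankThree_cox hn _ (sq f1 (hn _)) (fun x hx => ⟨commute_o hn ?_,
      mem_centralizer_singleton_iff.2 ((commute_o hn (by decide)).mul_left (commute_o hn ?_)),
      hw x ?_⟩)
    (fun q => h' (comm_of_edge hn (x := c1) (y := d1) q
      [e1, f1, b1, a, b2, c2, d2, e2, f2, b3, c3, d3, e3, f3]))
    (fun q => h' (comm_of_edge hn (x := c2) (y := d2) q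
      [e2, f2, b2, a, b1, c1, d1, e1, f1, b3, c3, d3, e3, f3]))
    fun q => h' (comm_of_edge hn (x := c3) (y := d3) q
      [e3, f3, b3, a, b1, c1, d1, e1, f1, b2, c2, d2, e2, f2])
  all_goals revert x; decide

theorem rankThree_of_inv {G : Type*} [Group G] {x y z g h k : G} (x3 : x ^ 3 = 1) (y3 : y ^ 3 = 1)
    (z3 : z ^ 3 = 1) (x1 : x ≠ 1) (y1 : y ≠ 1) (z1 : z ≠ 1) (xy : Commute x y) (xz : Commute x z)
    (yz : Commute y z) (gx : g * x * g⁻¹ = x⁻¹) (hy : h * y * h⁻¹ = y⁻¹) (kz : k * z * k⁻¹ = z⁻¹)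
    (gy : Commute g y) (gz : Commute g z) (hz : Commute h z) : RankThree G := by
  have : Fact (Nat.Prime 3) := ⟨Nat.prime_three⟩
  have key : ∀ {g x w : G} {i : ℤ}, x ^ 3 = 1 → x ≠ 1 → g * x * g⁻¹ = x⁻¹ → Commute g w →
      x ^ i * w = 1 → ((3 : ℕ) : ℤ) ∣ i := by
    intro g x w i h3 h1 hg hw e
    rw [eq_inv_of_mul_eq_one_right e, Commute.inv_right_iff] at hw
    have e2 : x ^ i = (x ^ i)⁻¹ := by
      rw [← inv_zpow, ← hg, conj_zpow, hw.eq, mul_inv_cancel_right]
    have := dvd_of_zpow_eq_one h3 h1 (i := 2 * i) (by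
      rw [two_mul, zpow_add]; exact mul_eq_one_iff_eq_inv.2 e2)
    omega
  refine ⟨3, x, y, z, Nat.prime_three, by decide, xy, xz, yz, x3, y3, z3, .of_inv (by decide) gx,
    .of_inv (by decide) hy, .of_inv (by decide) kz, fun i j l e => ?_⟩
  obtain ⟨i, rfl⟩ := key x3 x1 gx ((gy.zpow_right j).mul_right (gz.zpow_right l))
    (by rw [← mul_assoc]; exact e)
  rw [zpow_mul, zpow_natCast, x3, one_zpow, one_mul] at e
  obtain ⟨j, rfl⟩ := key y3 y1 hy (hz.zpow_right l) e
  rw [zpow_mul, zpow_natCast, y3, one_zpow, one_mul] at e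
  exact ⟨dvd_mul_right _ _, dvd_mul_right _ _, dvd_of_zpow_eq_one z3 z1 e⟩

theorem th_rank {G : Type*} [Group G] (φ : FreeGroup Th.Gen →* G) (R : ∀ r ∈ Th.extra, φ r = 1) :
    RankThree G ∨ ∀ x, φ (FreeGroup.of x) = 1 := by
  simp only [Th.extra, List.forall_mem_cons, map_mul, map_pow, map_inv] at R
  obtain ⟨a2, b2, c2, d2, e2, ab, ae, bc, bd, be, acd, ce, de, -, s7, -, -, -, sd, es, t3, ta, tb, -,
    td, te, ts, u2, -, -, -, -, ue, -, tu, -, us, -⟩ := R
  generalize ha : φ Th.a = a at *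
  generalize hb : φ Th.b = b at *
  generalize hc : φ Th.c = c at *
  generalize hd : φ Th.d = d at *
  generalize he : φ Th.e = e at *
  generalize hs : φ Th.s = s at *
  generalize ht : φ Th.t = t at *
  generalize hu : φ Th.u = u at *
  rw [mul_inv_eq_one] at acd tu
  by_cases a1 : a = 1
  · subst a1
    rw [one_mul] at ab
    obtain rfl := eq_one_of_pow b2 ab (by norm_num)
    rw [one_mul] at bc
    obtain rfl := eq_one_of_pow c2 bc (by norm_num)
    obtain rfl : e = 1 := by simpa using ue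
    rw [mul_one] at de
    obtain rfl := eq_one_of_pow d2 de (by norm_num)
    rw [mul_one] at sd
    obtain rfl := eq_one_of_pow sd s7 (by norm_num)
    obtain rfl : u = 1 := eq_one_of_pow (m := 2) (n := 3) (by simpa using u2) (by simpa using us)
      (by norm_num)
    obtain rfl : t = 1 := eq_one_of_pow (m := 2)
      (by rw [pow_two, mul_eq_one_iff_eq_inv]; simpa using tu) t3 (by norm_num)
    exact .inr fun x => by cases x <;> assumption
  rw [pow_two] at a2 b2 c2 d2 e2
  have cm : ∀ {x y : G}, x⁻¹ * y⁻¹ * x * y = 1 → Commute y x := fun {x y} h => by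
    rw [commute_iff_eq, eq_comm, ← mul_one (y * x), ← h]; group
  have cd : (c * d) ^ 2 ≠ 1 := fun h => a1 (by
    rw [acd, show 4 = 2 * 2 from rfl, pow_mul, h, one_pow])
  have inv : ∀ {a b : G}, a * a = 1 → b * b = 1 → a * (a * b) * a⁻¹ = (a * b)⁻¹ := fun ha hb => by
    rw [← mul_assoc, ha, one_mul, mul_inv_rev, inv_of_sq hb]
  have ca : c * a * c⁻¹ = a := by
    rw [acd, ← conj_pow, inv c2 d2, inv_pow, ← acd, inv_of_sq a2]
  have ac : Commute a c := (mul_inv_eq_iff_eq_mul.1 ca).symm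
  have ad : Commute a d := by
    have : Commute a (c * d) := acd ▸ (Commute.refl _).pow_left 4
    simpa using ac.inv_right.mul_right this
  have ae := comm_of_sq a2 e2 ae
  have bd' := comm_of_sq b2 d2 bd
  have be := comm_of_sq b2 e2 be
  refine .inl (rankThree_of_inv (k := u⁻¹) ab de t3 (fun h => cd ?_) (fun h => cd ?_) (fun h => ?_)
    ((ad.mul_right ae).mul_left (Commute.mul_right bd' be)) ((cm ta).mul_left (cm tb))
    ((cm td).mul_left (cm te)) (inv a2 b2) (inv d2 e2) (by rw [inv_inv, tu]) (ad.mul_right ae) (cm ta)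
    (cm td))
  · obtain rfl : a = b := mul_right_cancel (h.trans b2.symm)
    obtain rfl : a = c := mul_right_cancel ((eq_one_of_pow
      (by rw [ac.mul_pow, pow_two, pow_two, a2, c2, mul_one]) bc (by norm_num)).trans c2.symm)
    exact bd
  · obtain rfl : d = e := mul_right_cancel (h.trans e2.symm)
    exact ce
  · subst h
    obtain rfl : s = 1 := by simpa [pow_two] using ts
    obtain rfl : e = 1 := by simpa using es
    rw [mul_one] at de
    obtain rfl := eq_one_of_pow ((pow_two d).trans d2) de (by norm_num)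
    exact cd (by rw [mul_one, pow_two, c2])

theorem rankThree_Th (h : ¬ IsMulCommutative Th) : RankThree Th :=
  (th_rank _ fun _ hr => xrel hr).resolve_right fun k => h (comm_of_gen 1 fun x => by
    rw [show o Th.edges Th.extra x = 1 from k x]
    exact one_mem _)

end Cfsg.Lib.QT
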