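import Cfsg.Agent.QT.WrModel
import Cfsg.Agent.Local.CharP
import Cfsg.Agent.Ngrp.Theta

/-!
# A 2-local subgroup `S₄ ≀ 2` of odd index: weak closure and Sylow subgroups
-/

set_option autoImplicit false

namespace Cfsg.Lib.QT.Wr
open Subgroup Cfsg.Lib.Trans Cfsg.Lib.Local Cfsg.Lib.Ngrp

/-- The configuration. -/
structure Cf (G : Type*) [Group G] where
  Φ : W S4 →* G
  inj : Function.Injective Φ
  syl : IsSylowIn 2 (map (Φ.comp io) ⊤) ⊤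
  nA : normalizer ((map (Φ.comp io) A0 : Subgroup G) : Set G) ≤ Φ.range
  ch : CharP 2 (C1 (Φ.comp io zz))
  qt : ∀ E : Subgroup G, E ≤ normalizer ((map (Φ.comp io) V0 : Subgroup G) : Set G) →
    IsMulCommutative E → (∀ a ∈ E, a ^ 3 = 1) → Nat.card E ≤ 9
  perf : commutator G = ⊤

instance : DecidablePred (· ∈ (⊤ : Subgroup TT)) := fun _ => isTrue trivial

theorem cj_eq_of {c : TT} {X Y : Subgroup TT} (h : ∀ d, c⁻¹ * d * c ∈ X ↔ d ∈ Y) : cj c X = Y :=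
  Subgroup.ext fun d => mem_cj.trans (h d)

theorem ne_of {X Y : Subgroup TT} (c : TT) (h : c ∈ X) (h' : c ∉ Y) : X ≠ Y := fun e => h' (e ▸ h)

variable {G : Type*} [Group G]

namespace Cf
variable (Γ : Cf G)

/-- The embedding of the Sylow subgroup. -/
def ψ : TT →* G := Γ.Φ.comp io

/-- The image of a subgroup of the model. -/
def m (X : Subgroup TT) : Subgroup G := X.map Γ.ψ

theorem ψ_injective : Function.Injective Γ.ψ := Γ.inj.comp io_injective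

variable {Γ} {X Y : Subgroup TT} {c d : TT} {g x : G}

theorem ψ_inj : Γ.ψ c = Γ.ψ d ↔ c = d := Γ.ψ_injective.eq_iff

theorem ψ_eq_one : Γ.ψ c = 1 ↔ c = 1 := by rw [← map_one Γ.ψ, ψ_inj]

theorem mem_m : x ∈ Γ.m X ↔ ∃ c ∈ X, Γ.ψ c = x := mem_map

theorem ψ_mem : Γ.ψ c ∈ Γ.m X ↔ c ∈ X := mem_map_iff_mem Γ.ψ_injective

theorem card_m : Nat.card (Γ.m X) = Nat.card X := card_map_of_injective Γ.ψ_injective

theorem m_le : Γ.m X ≤ Γ.m Y ↔ X ≤ Y := map_le_map_iff_of_injective Γ.ψ_injective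

theorem m_inj : Γ.m X = Γ.m Y ↔ X = Y := (map_injective Γ.ψ_injective).eq_iff

theorem le_T : Γ.m X ≤ Γ.m ⊤ := m_le.2 le_top

theorem syl' : IsSylowIn 2 (Γ.m ⊤) ⊤ := Γ.syl

theorem pg : IsPGroup 2 (Γ.m X) := syl'.isPGroup.to_le le_T

theorem cj_ψ : cj (Γ.ψ c) (Γ.m X) = Γ.m (cj c X) := (map_cj _ _ _).symm

theorem ψ_norm (h : ∀ d, c⁻¹ * d * c ∈ X ↔ d ∈ X) : Γ.ψ c ∈ normalizer (Γ.m X : Set G) :=
  cj_eq_self_iff.1 (by rw [cj_ψ, cj_eq_of h])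

theorem m_norm (h : ∀ c ∈ Y, ∀ d, c⁻¹ * d * c ∈ X ↔ d ∈ X) :
    Γ.m Y ≤ normalizer (Γ.m X : Set G) := by
  rintro _ ⟨c, hc, rfl⟩
  exact ψ_norm (h c hc)

theorem ψ_not_norm (d : TT) (h : d ∈ X) (h' : c * d * c⁻¹ ∉ X) :
    Γ.ψ c ∉ normalizer (Γ.m X : Set G) := fun e => h' (ψ_mem.1 (by
  have := mem_normalizer_conj e (ψ_mem.2 h)
  rwa [← map_inv, ← map_mul, ← map_mul] at this))

theorem ψ_comm (h : c * d = d * c) : Γ.ψ c * Γ.ψ d = Γ.ψ d * Γ.ψ c := by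
  rw [← map_mul, ← map_mul, h]

theorem m_le_C1 (h : ∀ d ∈ X, d * c = c * d) : Γ.m X ≤ C1 (Γ.ψ c) := by
  rintro _ ⟨d, hd, rfl⟩
  exact mem_C1.2 (ψ_comm (h d hd))

theorem m_le_cent (h : ∀ c ∈ X, ∀ d ∈ Y, d * c = c * d) :
    Γ.m X ≤ centralizer (Γ.m Y : Set G) := by
  rintro _ ⟨c, hc, rfl⟩ _ ⟨d, hd, rfl⟩
  exact ψ_comm (h c hc d hd)

theorem exists_m {E : Subgroup G} (h : E ≤ Γ.m ⊤) : ∃ X, Γ.m X = E :=
  ⟨E.comap Γ.ψ, map_comap_eq_self (by rwa [MonoidHom.range_eq_map])⟩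

theorem sq_cj {E : Subgroup G} (h : ∀ x ∈ E, x * x = 1) (g : G) : ∀ x ∈ cj g E, x * x = 1 := by
  rintro _ ⟨y, hy, rfl⟩
  rw [← map_mul, h y hy, map_one]

theorem sq_m (h : ∀ c ∈ X, c * c = 1) : ∀ x ∈ Γ.m X, x * x = 1 := by
  rintro _ ⟨y, hy, rfl⟩
  rw [← map_mul, h y hy, map_one]

/-- Conjugates of elementary abelian subgroups of order 16 in `T`. -/
theorem cls (h : ∀ c ∈ X, c * c = 1) (hc : Nat.card X = 16) (hg : cj g (Γ.m X) ≤ Γ.m ⊤) :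
    cj g (Γ.m X) = Γ.m A0 ∨ cj g (Γ.m X) = Γ.m F0 ∨ cj g (Γ.m X) = Γ.m B0 ∨
      cj g (Γ.m X) = Γ.m C0 := by
  obtain ⟨E, hE⟩ := exists_m hg
  have h1 := sq_cj (sq_m (Γ := Γ) h) g
  have h2 := card_cj g (Γ.m X)
  rw [← hE] at h1 h2 ⊢
  rw [card_m, card_m, hc] at h2
  simpa only [m_inj] using cls16 (fun c hc => ψ_eq_one.1 (map_mul Γ.ψ c c ▸ h1 _ (ψ_mem.2 hc))) h2

theorem cls_le (h : ∀ c ∈ X, c * c = 1) (hc : Nat.card X = 16) (hg : cj g (Γ.m X) ≤ Γ.m ⊤) :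
    cj g (Γ.m X) ≤ Γ.m R0 := by
  rcases cls h hc hg with e | e | e | e <;> rw [e, m_le] <;> intro c <;> revert c <;> decide +kernel

theorem sup_of {X Y Z : Subgroup TT} (h1 : ∀ c ∈ X, c ∈ Z) (h2 : ∀ c ∈ Y, c ∈ Z)
    (h : ∀ c ∈ Z, ∃ u ∈ X, u⁻¹ * c ∈ Y) : X ⊔ Y = Z :=
  le_antisymm (sup_le h1 h2) fun c hc => by
    obtain ⟨u, hu, hv⟩ := h c hc
    rw [← mul_inv_cancel_left u c]
    exact mul_mem_sup hu hv

theorem m_sup : Γ.m (X ⊔ Y) = Γ.m X ⊔ Γ.m Y := map_sup _ _ _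

theorem AF : A0 ⊔ F0 = R0 := sup_of (by decide +kernel) (by decide +kernel) (by decide +kernel)
theorem BF : B0 ⊔ F0 = Y0 := sup_of (by decide +kernel) (by decide +kernel) (by decide +kernel)

theorem sqA : ∀ c ∈ A0, c * c = 1 := by decide +kernel
theorem sqF : ∀ c ∈ F0, c * c = 1 := by decide +kernel
theorem sqB : ∀ c ∈ B0, c * c = 1 := by decide +kernel
theorem sqC : ∀ c ∈ C0, c * c = 1 := by decide +kernel

theorem wcY (hg : cj g (Γ.m Y0) ≤ Γ.m ⊤) : cj g (Γ.m Y0) ≤ Γ.m R0 := by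
  rw [← BF, m_sup, cj_sup] at hg ⊢
  exact sup_le (cls_le sqB card_B0 (le_sup_left.trans hg)) (cls_le sqF card_F0 (le_sup_right.trans hg))

theorem mem_T_of (hA : g ∈ normalizer (Γ.m A0 : Set G)) (hg : cj g (Γ.m R0) ≤ Γ.m ⊤) :
    g ∈ Γ.m ⊤ := by
  obtain ⟨w, rfl⟩ := Γ.nA hA
  have key : ∀ c ∈ R0, ∃ c', w * io c * w⁻¹ = io c' := fun c hc => by
    obtain ⟨c', -, e⟩ := cj_le_iff.1 hg _ (ψ_mem.2 hc)
    refine ⟨c', Γ.inj ?_⟩
    rw [map_mul, map_mul, map_inv]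
    exact e.symm
  obtain ⟨c, rfl⟩ := mem_range_io (key b1 (by decide)) (key b2 (by decide))
  exact ψ_mem.2 (mem_top c)

variable [Finite G]

theorem wcR (hg : cj g (Γ.m R0) ≤ Γ.m ⊤) : cj g (Γ.m R0) = Γ.m R0 := by
  refine eq_of_le_of_card_ge ?_ (card_cj _ _).ge
  rw [← AF, m_sup, cj_sup] at hg
  rw [← AF, m_sup, cj_sup, ← m_sup, AF]
  exact sup_le (cls_le sqA card_A0 (le_sup_left.trans hg)) (cls_le sqF card_F0 (le_sup_right.trans hg))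

theorem T_nA : Γ.m ⊤ ≤ normalizer (Γ.m A0 : Set G) := m_norm (by decide +kernel)
theorem T_nF : Γ.m ⊤ ≤ normalizer (Γ.m F0 : Set G) := m_norm (by decide +kernel)
theorem T_nR : Γ.m ⊤ ≤ normalizer (Γ.m R0 : Set G) := m_norm (by decide +kernel)
theorem R_nB : Γ.m R0 ≤ normalizer (Γ.m B0 : Set G) := m_norm (by decide +kernel)
theorem R_nC : Γ.m R0 ≤ normalizer (Γ.m C0 : Set G) := m_norm (by decide +kernel)
theorem t_nB : Γ.ψ tt ∉ normalizer (Γ.m B0 : Set G) := ψ_not_norm a1 (by decide) (by decide)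
theorem t_nC : Γ.ψ tt ∉ normalizer (Γ.m C0 : Set G) := ψ_not_norm b1 (by decide) (by decide)

theorem A_ne_F : cj g (Γ.m A0) ≠ Γ.m F0 := fun e => by
  have s1 : IsSylowIn 2 (Γ.m ⊤) (normalizer (Γ.m F0 : Set G)) := syl'.mono T_nF le_top
  have h1 : cj g (Γ.m ⊤) ≤ normalizer (Γ.m F0 : Set G) := by
    rw [← e, ← cj_normalizer]
    exact cj_mono g T_nA
  obtain ⟨n, hn, h2⟩ := s1.exists_cj_le (isPGroup_cj pg g) h1
  rw [cj_cj] at h2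
  have hT : n * g ∈ normalizer (Γ.m ⊤ : Set G) := mem_normalizer_of_cj_le h2
  have e1 : cj (n * g) (Γ.m A0) = Γ.m F0 := by rw [cj_mul, e, cj_eq_of_mem_normalizer hn]
  generalize n * g = h at hT e1
  have hAF : Γ.m A0 ≠ Γ.m F0 := fun e => ne_of a1 (by decide) (by decide) (m_inj.1 e)
  have hF : Γ.m ⊤ ≤ normalizer ((cj h (Γ.m F0) : Subgroup G) : Set G) := by
    rw [← cj_normalizer, ← cj_eq_of_mem_normalizer hT]
    exact cj_mono h T_nF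
  have e2 : cj h (Γ.m F0) = Γ.m A0 := by
    rcases cls sqF card_F0 ((cj_mono h le_T).trans (cj_eq_of_mem_normalizer hT).le) with
      e | e | e | e
    · exact e
    · exact (hAF (cj_inj.1 (e1.trans e.symm))).elim
    · exact (t_nB (e ▸ hF (ψ_mem.2 (mem_top _)))).elim
    · exact (t_nC (e ▸ hF (ψ_mem.2 (mem_top _)))).elim
  have h3 : h * h ∈ Γ.m ⊤ := mem_T_of (cj_eq_self_iff.1 (by rw [cj_mul, e1, e2]))
    ((cj_mono _ le_T).trans (cj_eq_of_mem_normalizer (mul_mem hT hT)).le)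
  have h4 : IsPGroup 2 (zpowers h) := by
    obtain ⟨k, hk⟩ := pg (X := ⊤) ⟨_, h3⟩
    refine fun ⟨_, j, rfl⟩ => ⟨k + 1, Subtype.ext ?_⟩
    have hk' : (h * h) ^ 2 ^ k = 1 := congrArg Subtype.val hk
    show (h ^ j) ^ 2 ^ (k + 1) = 1
    rw [← zpow_natCast, ← zpow_mul, mul_comm, zpow_mul, zpow_natCast, pow_succ', pow_mul, pow_two,
      hk', one_zpow]
  have h5 := syl'.eq_of_le (isPGroup_sup h4 pg (zpowers_le.2 hT)) le_sup_right le_top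
  have h6 : h ∈ Γ.m ⊤ := h5 ▸ mem_sup_left (mem_zpowers h)
  exact hAF ((cj_eq_of_mem_normalizer (T_nA h6)).symm.trans e1)

theorem A_ne_B : cj g (Γ.m A0) ≠ Γ.m B0 := fun e => by
  have s1 : IsSylowIn 2 (cj g (Γ.m ⊤)) (normalizer (Γ.m B0 : Set G)) := by
    refine IsSylowIn.mono (cj_top g ▸ syl'.cj g) ?_ le_top
    rw [← e, ← cj_normalizer]
    exact cj_mono g T_nA
  obtain ⟨n, hn, h2⟩ := s1.exists_cj_le pg R_nB
  rw [← cj_inv_le_iff_le_cj, cj_cj] at h2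
  have hR := cj_eq_self_iff.1 (wcR h2)
  have e1 : cj (g⁻¹ * n) (Γ.m B0) = Γ.m A0 := by
    rw [cj_mul, cj_eq_of_mem_normalizer hn, ← e, cj_inv_cj]
  generalize g⁻¹ * n = h at hR e1
  have hu : h⁻¹ * Γ.ψ tt * h ∈ normalizer (Γ.m R0 : Set G) :=
    mul_mem (mul_mem (inv_mem hR) (T_nR (ψ_mem.2 (mem_top _)))) hR
  have hB : cj (h⁻¹ * Γ.ψ tt * h) (Γ.m B0) = Γ.m B0 := by
    rw [cj_mul, e1, cj_mul, cj_eq_of_mem_normalizer (T_nA (ψ_mem.2 (mem_top _))), ← e1, cj_inv_cj]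
  have hle : ∀ {X : Subgroup TT} {k : G}, k ∈ normalizer (Γ.m R0 : Set G) → X ≤ R0 →
      cj k (Γ.m X) ≤ Γ.m ⊤ := fun hk hX =>
    (cj_mono _ (m_le.2 hX)).trans ((cj_eq_of_mem_normalizer hk).le.trans le_T)
  have hAR : A0 ≤ R0 := AF ▸ le_sup_left
  have hA : cj (h⁻¹ * Γ.ψ tt * h) (Γ.m A0) = Γ.m A0 := by
    rcases cls sqA card_A0 (hle hu hAR) with e | e | e | e
    · exact e
    · exact (A_ne_F e).elim
    · exact (ne_of a2 (by decide) (by decide) (m_inj.1 (cj_inj.1 (e.trans hB.symm)))).elim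
    · have h7 := cj_eq_of_mem_normalizer hu
      have h8 := congrArg (cj (h⁻¹ * Γ.ψ tt * h)) (show Γ.m A0 ⊔ Γ.m B0 = Γ.m X0 by
        rw [← m_sup, sup_of (Z := X0) (by decide +kernel) (by decide +kernel) (by decide +kernel)])
      rw [cj_sup, e, hB, ← m_sup,
        sup_of (Z := R0) (by decide +kernel) (by decide +kernel) (by decide +kernel)] at h8
      have h9 := congrArg (fun H : Subgroup G => Nat.card H) h8
      simp only [card_cj, card_m, card_R0, card_X0] at h9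
      omega
  obtain ⟨c, -, hc⟩ := mem_T_of (cj_eq_self_iff.1 hA) (hle hu le_rfl)
  have hc' : c ∈ R0 := by
    by_contra hc'
    have : ∀ c : TT, c ∉ R0 → ∃ d ∈ B0, c * d * c⁻¹ ∉ B0 := by decide +kernel
    obtain ⟨d, h1, h2⟩ := this c hc'
    exact ψ_not_norm d h1 h2 (hc ▸ cj_eq_self_iff.1 hB)
  have h3 := mem_normalizer_conj hR (hc ▸ ψ_mem.2 hc' : h⁻¹ * Γ.ψ tt * h ∈ Γ.m R0)
  rw [show h * (h⁻¹ * Γ.ψ tt * h) * h⁻¹ = Γ.ψ tt by group, ψ_mem] at h3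
  exact absurd h3 (by decide)

theorem cj_tC : cj (Γ.ψ tt) (Γ.m C0) = Γ.m B0 := by
  rw [cj_ψ, cj_eq_of (Y := B0) (by decide +kernel)]

/-- `A` is weakly closed in `T`. -/
theorem wcA (hg : cj g (Γ.m A0) ≤ Γ.m ⊤) : g ∈ normalizer (Γ.m A0 : Set G) := by
  rcases cls sqA card_A0 hg with e | e | e | e
  · exact cj_eq_self_iff.1 e
  · exact (A_ne_F e).elim
  · exact (A_ne_B e).elim
  · exact (A_ne_B (g := Γ.ψ tt * g) (by rw [cj_mul, e, cj_tC])).elim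

theorem nR (hg : cj g (Γ.m R0) ≤ Γ.m ⊤) : g ∈ Γ.m ⊤ :=
  mem_T_of (wcA ((cj_mono g (m_le.2 (AF ▸ le_sup_left))).trans hg)) hg

theorem sylR {H : Subgroup G} (h : Γ.m R0 ≤ H) (ht : Γ.ψ tt ∉ H) : IsSylowIn 2 (Γ.m R0) H := by
  refine isSylowIn_of_maximal h pg fun Q hQ h1 h2 => ?_
  by_contra h3
  obtain ⟨x, hx, hx'⟩ := SetLike.exists_of_lt (lt_inf_normalizer hQ (lt_of_le_not_ge h1 h3))
  obtain ⟨c, -, rfl⟩ := nR ((cj_eq_of_mem_normalizer hx.2).le.trans le_T)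
  have : ∀ c : TT, c ∉ R0 → tt * c⁻¹ ∈ R0 := by decide +kernel
  have h4 := mul_mem (h (ψ_mem.2 (this c fun e => hx' (ψ_mem.2 e)))) (h2 hx.1)
  rw [← map_mul, inv_mul_cancel_right] at h4
  exact ht h4

theorem card_T : Nat.card (Γ.m ⊤) = 128 := by rw [card_m, card_top, card_TT]

theorem sylB : IsSylowIn 2 (Γ.m R0) (normalizer (Γ.m B0 : Set G)) := sylR R_nB t_nB

theorem syl_z1 : IsSylowIn 2 (Γ.m R0) (C1 (Γ.ψ z1)) :=
  sylR (m_le_C1 (by decide +kernel)) fun e => by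
    rw [mem_C1, ← map_mul, ← map_mul, ψ_inj] at e
    exact absurd e (by decide)

theorem syl_z : IsSylowIn 2 (Γ.m ⊤) (C1 (Γ.ψ zz)) := syl'.mono (m_le_C1 (by decide +kernel)) le_top

theorem cj_C1' (g x : G) : cj g (C1 x) = C1 (g * x * g⁻¹) := by
  rw [C1, cj_centralizer_set, Set.image_singleton]

theorem z_ne_z1 : g * Γ.ψ zz * g⁻¹ ≠ Γ.ψ z1 := fun e => by
  have := syl_z1.card_le (isPGroup_cj (pg (Γ := Γ) (X := ⊤)) g)
    (by rw [← e, ← cj_C1']; exact cj_mono g syl_z.le)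
  rw [card_cj, card_T, card_m, card_R0] at this
  omega

theorem F_ne_B : cj g (Γ.m F0) ≠ Γ.m B0 := fun e => by
  have := sylB.card_le (isPGroup_cj (pg (Γ := Γ) (X := ⊤)) g)
    (by rw [← e, ← cj_normalizer]; exact cj_mono g T_nF)
  rw [card_cj, card_T, card_m, card_R0] at this
  omega

/-- Elements centralized by a 2-group of order more than 32 are conjugate into `⟨z₁, z₂⟩`. -/
theorem cent_big {P : Subgroup G} (hP : IsPGroup 2 P) (hc : 32 < Nat.card P) :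
    ∃ g, ∀ x ∈ P, P ≤ C1 x → ∃ c ∈ Z0, Γ.ψ c = g * x * g⁻¹ := by
  obtain ⟨g, -, hg⟩ := (syl' (Γ := Γ)).exists_cj_le hP le_top
  refine ⟨g, fun x hx h => ?_⟩
  obtain ⟨c, -, e⟩ := hg (conj_mem_cj.2 hx)
  obtain ⟨P0, hP0⟩ := exists_m hg
  refine ⟨c, cent64 (P := P0) (by rwa [← card_m (Γ := Γ), hP0, card_cj])
    fun d hd => (ψ_inj (Γ := Γ)).1 ?_, e⟩
  rw [map_mul, map_mul, ← mem_C1, e, ← cj_C1']
  exact cj_mono g h (hP0 ▸ ψ_mem.2 hd)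

/-- A Sylow criterion for subgroups of order 32. -/
theorem syl32 {H : Subgroup G} (hX : Nat.card X = 32) (h : Γ.m X ≤ H) (S : Set G)
    (hS : S ⊆ Γ.m X) (hH : ∀ x ∈ S, H ≤ C1 x)
    (hn : ∀ g, ¬ ∀ x ∈ S, ∃ c ∈ Z0, Γ.ψ c = g * x * g⁻¹) : IsSylowIn 2 (Γ.m X) H := by
  refine isSylowIn_of_maximal h pg fun Q hQ h1 h2 => ?_
  by_contra h3
  have h4 := card_lt_of_lt (lt_of_le_not_ge h1 h3)
  rw [card_m, hX] at h4
  obtain ⟨g, hg⟩ := cent_big (Γ := Γ) hQ h4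
  exact hn g fun x hx => hg x (h1 (hS hx)) (h2.trans (hH x hx))

end Cf
end Cfsg.Lib.QT.Wr
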