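import Mathlib.Algebra.Group.MinimalAxioms
import Mathlib.GroupTheory.SpecificGroups.Dihedral
import Mathlib.GroupTheory.Perm.Cycle.Concrete
import Mathlib.GroupTheory.Perm.Finite
import Mathlib.Tactic.DeriveFintype

/-!
# Finite models of `D₈`, `D₈ ≀ 2` and `S₄ ≀ 2`
-/

set_option autoImplicit false

namespace Cfsg.Lib.QT.Wr
open Subgroup

/-- The wreath product of a group with the group of order 2. -/
@[ext] structure W (H : Type*) where
  x : H
  y : H
  s : Bool

instance {H : Type*} [DecidableEq H] : DecidableEq (W H) := fun u v =>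
  decidable_of_iff (u.s = v.s ∧ u.x = v.x ∧ u.y = v.y)
    ⟨fun h => W.ext h.2.1 h.2.2 h.1, fun h => h ▸ ⟨rfl, rfl, rfl⟩⟩

namespace W
variable {H H' : Type*} [Group H] [Group H']

/-- The product. -/
def mu (u v : W H) : W H :=
  match u.s with
  | false => ⟨u.x * v.x, u.y * v.y, v.s⟩
  | true => ⟨u.x * v.y, u.y * v.x, !v.s⟩

/-- The inverse. -/
def iv (u : W H) : W H :=
  match u.s with
  | false => ⟨u.x⁻¹, u.y⁻¹, false⟩
  | true => ⟨u.y⁻¹, u.x⁻¹, true⟩

instance : Mul (W H) := ⟨mu⟩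
instance : One (W H) := ⟨⟨1, 1, false⟩⟩
instance : Inv (W H) := ⟨iv⟩

theorem mul_f (x y : H) (v : W H) : (⟨x, y, false⟩ : W H) * v = ⟨x * v.x, y * v.y, v.s⟩ := rfl
theorem mul_t (x y : H) (v : W H) : (⟨x, y, true⟩ : W H) * v = ⟨x * v.y, y * v.x, !v.s⟩ := rfl
theorem inv_f (x y : H) : (⟨x, y, false⟩ : W H)⁻¹ = ⟨x⁻¹, y⁻¹, false⟩ := rfl
theorem inv_t (x y : H) : (⟨x, y, true⟩ : W H)⁻¹ = ⟨y⁻¹, x⁻¹, true⟩ := rfl
theorem one_def : (1 : W H) = ⟨1, 1, false⟩ := rfl

instance : Group (W H) := Group.ofLeftAxioms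
  (by rintro ⟨x, y, _ | _⟩ ⟨x', y', _ | _⟩ ⟨x'', y'', s⟩ <;> simp [mul_f, mul_t, mul_assoc])
  (by rintro ⟨x, y, s⟩; simp [one_def, mul_f])
  (by rintro ⟨x, y, _ | _⟩ <;> simp [one_def, mul_f, mul_t, inv_f, inv_t])

/-- Functoriality. -/
def map (f : H →* H') : W H →* W H' := MonoidHom.mk' (fun u => ⟨f u.x, f u.y, u.s⟩)
  (by rintro ⟨x, y, _ | _⟩ v <;> simp [mul_f, mul_t])

theorem map_mk (f : H →* H') (x y : H) (s : Bool) : map f ⟨x, y, s⟩ = ⟨f x, f y, s⟩ := rfl

theorem map_injective {f : H →* H'} (hf : Function.Injective f) : Function.Injective (map f) := by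
  rintro ⟨x, y, s⟩ ⟨x', y', s'⟩ h
  rw [map_mk, map_mk, W.mk.injEq] at h
  rw [hf h.1, hf h.2.1, h.2.2]

/-- The second factor. -/
def inr : H →* W H := MonoidHom.mk' (fun y => ⟨1, y, false⟩) (fun _ _ => by simp [mul_f])

theorem inr_injective : Function.Injective (inr : H →* W H) := fun _ _ h => congrArg W.y h

end W

/-- `z^i a^j b^k` in the dihedral group of order 8. -/
@[ext] structure D where
  i : Bool
  j : Bool
  k : Bool

instance : DecidableEq D := fun u v =>
  decidable_of_iff (u.k = v.k ∧ u.j = v.j ∧ u.i = v.i)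
    ⟨fun h => D.ext h.2.2 h.2.1 h.1, fun h => h ▸ ⟨rfl, rfl, rfl⟩⟩

namespace D
instance : Mul D := ⟨fun u v => ⟨u.i ^^ (v.i ^^ (u.k && v.j)), u.j ^^ v.j, u.k ^^ v.k⟩⟩
instance : One D := ⟨⟨false, false, false⟩⟩
instance : Inv D := ⟨fun u => ⟨u.i ^^ (u.k && u.j), u.j, u.k⟩⟩

instance decAll (p : D → Prop) [DecidablePred p] : Decidable (∀ u, p u) :=
  decidable_of_iff (∀ i j k, p ⟨i, j, k⟩) ⟨fun h u => h u.i u.j u.k, fun h _ _ _ => h _⟩

instance decEx (p : D → Prop) [DecidablePred p] : Decidable (∃ u, p u) :=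
  decidable_of_iff (∃ i j k, p ⟨i, j, k⟩) ⟨fun ⟨_, _, _, h⟩ => ⟨_, h⟩, fun ⟨u, h⟩ => ⟨u.i, u.j, u.k, h⟩⟩

instance : Group D := Group.ofLeftAxioms (by decide) (by decide) (by decide)

instance : Fintype D := Fintype.ofEquiv (Bool × Bool × Bool)
  ⟨fun u => ⟨u.1, u.2.1, u.2.2⟩, fun u => (u.i, u.j, u.k), fun _ => rfl, fun _ => rfl⟩

/-- The central involution. -/
def z : D := ⟨true, false, false⟩
/-- A generator. -/
def a : D := ⟨false, true, false⟩
/-- A generator. -/
def b : D := ⟨false, false, true⟩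

/-- The isomorphism with the dihedral group of Mathlib. -/
noncomputable def equivDih : D ≃* DihedralGroup 4 :=
  MulEquiv.ofBijective (MonoidHom.mk' (fun u : D => (if u.i then DihedralGroup.r 2 else 1) *
    (if u.j then DihedralGroup.sr 0 else 1) * (if u.k then DihedralGroup.sr 1 else 1)) (by decide))
    (by decide)
end D

/-- The model of `D₈ ≀ 2`. -/
abbrev TT := W D

instance TT.decAll (p : TT → Prop) [DecidablePred p] : Decidable (∀ u, p u) :=
  decidable_of_iff (∀ x y s, p ⟨x, y, s⟩) ⟨fun h u => h u.x u.y u.s, fun h _ _ _ => h _⟩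

instance TT.decEx (p : TT → Prop) [DecidablePred p] : Decidable (∃ u, p u) :=
  decidable_of_iff (∃ x y s, p ⟨x, y, s⟩) ⟨fun ⟨_, _, _, h⟩ => ⟨_, h⟩, fun ⟨u, h⟩ => ⟨u.x, u.y, u.s, h⟩⟩

instance : Fintype TT := Fintype.ofEquiv (D × D × Bool)
  ⟨fun u => ⟨u.1, u.2.1, u.2.2⟩, fun u => (u.x, u.y, u.s), fun _ => rfl, fun _ => rfl⟩

/-- A subgroup of the model given by a Boolean test. -/
def sg (p : TT → Bool) (h : p 1 = true ∧ ∀ u, p u = true → ∀ v, p v = true → p (u * v) = true) :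
    Subgroup TT :=
  { carrier := {u | p u = true}
    one_mem' := h.1
    mul_mem' := fun {u v} hu hv => h.2 u hu v hv
    inv_mem' := fun {u} hu => by
      have e : ∀ u : TT, u⁻¹ = u * (u * u) * (u * u * (u * u)) := by decide +kernel
      rw [e]
      exact h.2 _ (h.2 _ hu _ (h.2 _ hu _ hu)) _ (h.2 _ (h.2 _ hu _ hu) _ (h.2 _ hu _ hu)) }

instance (p : TT → Bool) (h) : DecidablePred (· ∈ sg p h) :=
  fun u => inferInstanceAs (Decidable (p u = true))

/-- `D₁ × D₂`. -/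
def R0 : Subgroup TT := sg (fun u => !u.s) (by decide +kernel)
/-- `V₁ × V₂`. -/
def A0 : Subgroup TT := sg (fun u => !u.s && !u.x.k && !u.y.k) (by decide +kernel)
/-- `V₁' × V₂'`. -/
def F0 : Subgroup TT := sg (fun u => !u.s && !u.x.j && !u.y.j) (by decide +kernel)
/-- `V₁ × V₂'`. -/
def B0 : Subgroup TT := sg (fun u => !u.s && !u.x.k && !u.y.j) (by decide +kernel)
/-- `V₁' × V₂`. -/
def C0 : Subgroup TT := sg (fun u => !u.s && !u.x.j && !u.y.k) (by decide +kernel)
/-- `D₁ × V₂'`. -/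
def Y0 : Subgroup TT := sg (fun u => !u.s && !u.y.j) (by decide +kernel)
/-- `V₁ × D₂`. -/
def X0 : Subgroup TT := sg (fun u => !u.s && !u.x.k) (by decide +kernel)
/-- `V₁ ⟨z₂⟩`. -/
def E0 : Subgroup TT := sg (fun u => !u.s && !u.x.k && !u.y.j && !u.y.k) (by decide +kernel)
/-- `V₁`. -/
def V0 : Subgroup TT := sg (fun u => !u.s && !u.x.k && !u.y.i && !u.y.j && !u.y.k) (by decide +kernel)
/-- `⟨z₁, z₂⟩`. -/
def Z0 : Subgroup TT := sg (fun u => !u.s && !u.x.j && !u.x.k && !u.y.j && !u.y.k) (by decide +kernel)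
/-- The kernel of the product of the two linear characters of `S₄ ≀ 2`. -/
def K0 : Subgroup TT := sg (fun u => !(u.s ^^ (u.x.k ^^ u.y.k))) (by decide +kernel)
/-- `⟨z, a₁ a₂⟩`. -/
def UA0 : Subgroup TT := sg (fun u => !u.s && !u.x.k && u.x == u.y) (by decide +kernel)
/-- `⟨z, b₁ b₂⟩`. -/
def UF0 : Subgroup TT := sg (fun u => !u.s && !u.x.j && u.x == u.y) (by decide +kernel)
/-- `A ⟨t⟩`. -/
def PA0 : Subgroup TT := sg (fun u => !u.x.k && !u.y.k) (by decide +kernel)
/-- `F ⟨t⟩`. -/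
def PF0 : Subgroup TT := sg (fun u => !u.x.j && !u.y.j) (by decide +kernel)

instance : DecidablePred (· ∈ R0) := inferInstanceAs (DecidablePred (· ∈ sg _ _))
instance : DecidablePred (· ∈ A0) := inferInstanceAs (DecidablePred (· ∈ sg _ _))
instance : DecidablePred (· ∈ F0) := inferInstanceAs (DecidablePred (· ∈ sg _ _))
instance : DecidablePred (· ∈ B0) := inferInstanceAs (DecidablePred (· ∈ sg _ _))
instance : DecidablePred (· ∈ C0) := inferInstanceAs (DecidablePred (· ∈ sg _ _))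
instance : DecidablePred (· ∈ Y0) := inferInstanceAs (DecidablePred (· ∈ sg _ _))
instance : DecidablePred (· ∈ X0) := inferInstanceAs (DecidablePred (· ∈ sg _ _))
instance : DecidablePred (· ∈ E0) := inferInstanceAs (DecidablePred (· ∈ sg _ _))
instance : DecidablePred (· ∈ V0) := inferInstanceAs (DecidablePred (· ∈ sg _ _))
instance : DecidablePred (· ∈ Z0) := inferInstanceAs (DecidablePred (· ∈ sg _ _))
instance : DecidablePred (· ∈ K0) := inferInstanceAs (DecidablePred (· ∈ sg _ _))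
instance : DecidablePred (· ∈ UA0) := inferInstanceAs (DecidablePred (· ∈ sg _ _))
instance : DecidablePred (· ∈ UF0) := inferInstanceAs (DecidablePred (· ∈ sg _ _))
instance : DecidablePred (· ∈ PA0) := inferInstanceAs (DecidablePred (· ∈ sg _ _))
instance : DecidablePred (· ∈ PF0) := inferInstanceAs (DecidablePred (· ∈ sg _ _))

theorem card_TT : Nat.card TT = 128 := by rw [Nat.card_eq_fintype_card]; decide +kernel
theorem card_R0 : Nat.card R0 = 64 := by rw [Nat.card_eq_fintype_card]; decide +kernel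
theorem card_A0 : Nat.card A0 = 16 := by rw [Nat.card_eq_fintype_card]; decide +kernel
theorem card_F0 : Nat.card F0 = 16 := by rw [Nat.card_eq_fintype_card]; decide +kernel
theorem card_B0 : Nat.card B0 = 16 := by rw [Nat.card_eq_fintype_card]; decide +kernel
theorem card_C0 : Nat.card C0 = 16 := by rw [Nat.card_eq_fintype_card]; decide +kernel
theorem card_Y0 : Nat.card Y0 = 32 := by rw [Nat.card_eq_fintype_card]; decide +kernel
theorem card_X0 : Nat.card X0 = 32 := by rw [Nat.card_eq_fintype_card]; decide +kernel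
theorem card_PA0 : Nat.card PA0 = 32 := by rw [Nat.card_eq_fintype_card]; decide +kernel
theorem card_PF0 : Nat.card PF0 = 32 := by rw [Nat.card_eq_fintype_card]; decide +kernel

/-- Named elements. -/
def z1 : TT := ⟨D.z, 1, false⟩
/-- Named elements. -/
def a1 : TT := ⟨D.a, 1, false⟩
/-- Named elements. -/
def b1 : TT := ⟨D.b, 1, false⟩
/-- Named elements. -/
def z2 : TT := ⟨1, D.z, false⟩
/-- Named elements. -/
def a2 : TT := ⟨1, D.a, false⟩
/-- Named elements. -/
def b2 : TT := ⟨1, D.b, false⟩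
/-- Named elements. -/
def zz : TT := ⟨D.z, D.z, false⟩
/-- Named elements. -/
def aa : TT := ⟨D.a, D.a, false⟩
/-- Named elements. -/
def bb : TT := ⟨D.b, D.b, false⟩
/-- Named elements. -/
def tt : TT := ⟨1, 1, true⟩

theorem card_le_filter {E : Subgroup TT} (p : TT → Prop) [DecidablePred p] (h : ∀ d ∈ E, p d) :
    Nat.card E ≤ (Finset.univ.filter p).card := by
  classical
  rw [Nat.card_eq_fintype_card, Fintype.card_subtype]
  exact Finset.card_le_card fun d hd => by simpa using h d (by simpa using hd)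

/-- The elementary abelian subgroups of order 16. -/
theorem cls16 {E : Subgroup TT} (h : ∀ x ∈ E, x * x = 1) (hc : Nat.card E = 16) :
    E = A0 ∨ E = F0 ∨ E = B0 ∨ E = C0 := by
  have cm : ∀ x ∈ E, ∀ y ∈ E, y * x = x * y := fun x hx y hy => by
    have := h _ (mul_mem hx hy)
    calc y * x = x * x * (y * x) * (y * y) := by rw [h x hx, h y hy, one_mul, mul_one]
      _ = x * (x * y * (x * y)) * y := by group
      _ = x * y := by rw [this, mul_one]
  have hs : ∀ x ∈ E, x.s = false := fun x hx => by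
    by_contra hx'
    have h1 : ∀ c : TT, ¬ c.s = false → c * c = 1 →
        (Finset.univ.filter fun d : TT => d * d = 1 ∧ d * c = c * d).card ≤ 12 := by decide +kernel
    have := (card_le_filter _ fun d hd => ⟨h d hd, cm x hx d hd⟩).trans (h1 x hx' (h x hx))
    omega
  have h1 : ∀ c : TT, c.s = false → c * c = 1 → ∀ d : TT, d.s = false → d * c = c * d →
      (c.x.k = true → d.x.j = false) ∧ (c.y.k = true → d.y.j = false) := by decide +kernel
  have key : ∀ {X : Subgroup TT}, Nat.card X = 16 → E ≤ X → E = X := fun hX hle =>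
    eq_of_le_of_card_ge hle (by rw [hX, hc])
  by_cases hx : ∃ c ∈ E, c.x.k = true <;> by_cases hy : ∃ c ∈ E, c.y.k = true
  · obtain ⟨c, hc1, hc2⟩ := hx
    obtain ⟨c', hc1', hc2'⟩ := hy
    refine .inr (.inl (key card_F0 fun d hd => ?_))
    have e1 := (h1 c (hs c hc1) (h c hc1) d (hs d hd) (cm c hc1 d hd)).1 hc2
    have e2 := (h1 c' (hs c' hc1') (h c' hc1') d (hs d hd) (cm c' hc1' d hd)).2 hc2'
    show (!d.s && !d.x.j && !d.y.j) = true
    simp [hs d hd, e1, e2]
  · obtain ⟨c, hc1, hc2⟩ := hx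
    refine .inr (.inr (.inr (key card_C0 fun d hd => ?_)))
    have e1 := (h1 c (hs c hc1) (h c hc1) d (hs d hd) (cm c hc1 d hd)).1 hc2
    have e2 : d.y.k = false := Bool.eq_false_iff.2 fun e => hy ⟨d, hd, e⟩
    show (!d.s && !d.x.j && !d.y.k) = true
    simp [hs d hd, e1, e2]
  · obtain ⟨c', hc1', hc2'⟩ := hy
    refine .inr (.inr (.inl (key card_B0 fun d hd => ?_)))
    have e1 : d.x.k = false := Bool.eq_false_iff.2 fun e => hx ⟨d, hd, e⟩
    have e2 := (h1 c' (hs c' hc1') (h c' hc1') d (hs d hd) (cm c' hc1' d hd)).2 hc2'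
    show (!d.s && !d.x.k && !d.y.j) = true
    simp [hs d hd, e1, e2]
  · refine .inl (key card_A0 fun d hd => ?_)
    have e1 : d.x.k = false := Bool.eq_false_iff.2 fun e => hx ⟨d, hd, e⟩
    have e2 : d.y.k = false := Bool.eq_false_iff.2 fun e => hy ⟨d, hd, e⟩
    show (!d.s && !d.x.k && !d.y.k) = true
    simp [hs d hd, e1, e2]

/-- Elements with a large centralizer. -/
theorem cent64 {P : Subgroup TT} (hP : 32 < Nat.card P) {c : TT} (h : ∀ d ∈ P, d * c = c * d) :
    c ∈ Z0 := by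
  by_contra hc
  have h1 : ∀ c : TT, c ∉ Z0 → (Finset.univ.filter fun d : TT => d * c = c * d).card ≤ 32 := by
    decide +kernel
  have := (card_le_filter _ h).trans (h1 c hc)
  omega

/-- The symmetric group of degree 4. -/
abbrev S4 := Equiv.Perm (Fin 4)

/-- The embedding of `D₈` in `S₄`. -/
def dd : D →* S4 := MonoidHom.mk' (fun u => (if u.i then Equiv.swap 0 1 * Equiv.swap 2 3 else 1) *
    (if u.j then Equiv.swap 0 2 * Equiv.swap 1 3 else 1) * (if u.k then Equiv.swap 0 1 else 1))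
    (by decide +kernel)

theorem dd_injective : Function.Injective dd := by
  intro u v
  revert u v
  decide +kernel

/-- The 3-cycle. -/
def rho : S4 := Equiv.swap 0 1 * Equiv.swap 1 2

/-- The embedding of `D₈ ≀ 2` in `S₄ ≀ 2`. -/
def io : TT →* W S4 := W.map dd

theorem io_injective : Function.Injective io := W.map_injective dd_injective

theorem mem_range_io {w : W S4} (h1 : ∃ c, w * io b1 * w⁻¹ = io c)
    (h2 : ∃ c, w * io b2 * w⁻¹ = io c) : ∃ c, io c = w := by
  have key : ∀ k : S4, (∃ d, k * dd D.b * k⁻¹ = dd d) → ∃ d, dd d = k := by decide +kernel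
  obtain ⟨x, y, _ | _⟩ := w
  · obtain ⟨⟨c, c', s⟩, h1⟩ := h1
    obtain ⟨⟨e, e', s'⟩, h2⟩ := h2
    obtain ⟨u, rfl⟩ := key x ⟨c, congrArg W.x h1⟩
    obtain ⟨v, rfl⟩ := key y ⟨e', congrArg W.y h2⟩
    exact ⟨⟨u, v, false⟩, rfl⟩
  · obtain ⟨⟨c, c', s⟩, h1⟩ := h1
    obtain ⟨⟨e, e', s'⟩, h2⟩ := h2
    obtain ⟨u, rfl⟩ := key x ⟨e, congrArg W.x h2⟩
    obtain ⟨v, rfl⟩ := key y ⟨c', congrArg W.y h1⟩
    exact ⟨⟨u, v, true⟩, rfl⟩

theorem conj_A0 (w : W S4) {c : TT} (hc : c ∈ A0) : ∃ c' ∈ A0, w * io c * w⁻¹ = io c' := by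
  have key : ∀ k : S4, ∀ d : D, d.k = false → ∃ d' : D, d'.k = false ∧ k * dd d * k⁻¹ = dd d' := by
    decide +kernel
  obtain ⟨u, v, s⟩ := c
  have hc' : (!s && !u.k && !v.k) = true := hc
  simp only [Bool.and_eq_true, Bool.not_eq_true'] at hc'
  obtain ⟨⟨rfl, h1⟩, h2⟩ := hc'
  obtain ⟨x, y, _ | _⟩ := w
  · obtain ⟨u', e1, e2⟩ := key x u h1
    obtain ⟨v', e3, e4⟩ := key y v h2
    refine ⟨⟨u', v', false⟩, show (!false && !u'.k && !v'.k) = true by simp [e1, e3], ?_⟩
    exact W.ext e2 e4 rfl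
  · obtain ⟨u', e1, e2⟩ := key x v h2
    obtain ⟨v', e3, e4⟩ := key y u h1
    refine ⟨⟨u', v', false⟩, show (!false && !u'.k && !v'.k) = true by simp [e1, e3], ?_⟩
    exact W.ext e2 e4 rfl

end Cfsg.Lib.QT.Wr
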