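import Cfsg.Agent.QT.XfCore
import Cfsg.Prelude.Def_Amalgam

/-! Transport of the module lemma to subgroups acting by conjugation. -/

set_option autoImplicit false
set_option linter.unusedSectionVars false
set_option linter.unusedVariables false

open Pointwise Cfsg Cfsg.Lib.Solv Cfsg.Lib.FT Cfsg.Lib.FT.BG4 Subgroup
open scoped commutatorElement

namespace Cfsg.Lib.QT.Xf

variable {G : Type*} [Group G] [Finite G] {p : ℕ} [hp : Fact p.Prime]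

theorem core' {V : Type*} [Group V] [Finite V] (h2 : ∀ v : V, v * v = 1) (hp2 : p ≠ 2) (hp3 : p ≠ 3)
    {E B : Subgroup (MulAut V)}
    (hE : (Nat.card E = p ^ 2 ∧ ⁅E, E⁆ = ⊥) ∨ (Nat.card E = p ^ 3 ∧ ⁅E, E⁆ ≠ ⊥))
    (h0 : B ≠ ⊥) (hb : ∀ b ∈ B, b * b = 1) (hN : B ≤ 𝐍 E)
    (hC : B ⊓ 𝐂 E = ⊥) (hi : (fxS B).index ≤ Nat.card B ^ 2) :
    p = 5 ∧ ∀ r : ℕ, r.Prime → r ≠ 2 → r ≠ 5 → ∀ g ∈ 𝐍 E, g ^ r ∈ 𝐂 E → g ∈ 𝐂 E :=
  have hc : ∀ a b : V, a * b = b * a := fun a b => by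
    rw [← inv_eq_of_mul_eq_one_left (h2 (a * b)), mul_inv_rev, inv_eq_of_mul_eq_one_left (h2 a),
      inv_eq_of_mul_eq_one_left (h2 b)]
  @core V (@CommGroup.mk V _ hc) _ E h2 p _ hp2 hp3 hE B h0 hb hN hC hi

theorem comm_mem_core {X : Subgroup G} (hP : IsPGroup p (X ⧸ pCore 2 X)) {g : G} (hg : g ∈ 𝐍 X)
    {m : ℕ} (hm : m.Coprime p) (hgm : ∀ x ∈ X, ⁅g ^ m, x⁆ ∈ pCoreOf 2 X)
    (h : ∀ x ∈ X, ⁅g, x⁆ ∈ pCoreOf 2 X ⊔ ⁅X, X⁆) : ∀ x ∈ X, ⁅g, x⁆ ∈ pCoreOf 2 X := by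
  have : Fact (Nat.Prime 2) := ⟨Nat.prime_two⟩
  have := hP.isNilpotent
  let α := Coprime.quotAut X.normalizerMonoidHom (pCore 2 X) fun a x hx =>
    characteristic_iff_le_comap.1 (pCore_characteristic 2 X) _ hx
  have k : ∀ a : 𝐍 X, α a = 1 ↔ ∀ x ∈ X, ⁅a.1, x⁆ ∈ pCoreOf 2 X := fun a => by
    refine (Coprime.mem_ker_quotAut _ _ _ a).trans ?_
    exact ⟨fun h x hx => mem_map_of_mem X.subtype (h ⟨x, hx⟩),
      fun h x => (mem_map_iff_mem X.subtype_injective).1 (h x x.2)⟩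
  refine (k ⟨g, hg⟩).1 (mulAut_eq_one_of_frattini hP (hm.coprime_dvd_left
    (orderOf_dvd_of_pow_eq_one (by rw [← map_pow]; exact (k _).2 hgm))) fun y =>
      commutator_le_frattini_of_isNilpotent ?_)
  obtain ⟨x, rfl⟩ := QuotientGroup.mk_surjective y
  have h1 : pCoreOf 2 X ⊔ ⁅X, X⁆ ≤ ((_root_.commutator (X ⧸ pCore 2 X)).comap
      (QuotientGroup.mk' _)).map X.subtype := by
    rw [← map_commutator_top]
    refine sup_le (map_mono fun a ha => ?_) (map_mono ?_)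
    · rw [mem_comap, QuotientGroup.mk'_apply, (QuotientGroup.eq_one_iff a).2 ha]; exact one_mem _
    · rw [← map_le_iff_le_comap, _root_.commutator_def, map_commutator]
      exact commutator_mono le_top le_top
  exact (mem_map_iff_mem X.subtype_injective (x := X.normalizerMonoidHom ⟨g, hg⟩ x * x⁻¹)).1
    (h1 (h x x.2))

theorem act {P S X V B : Subgroup G} (hP : PD p P S) (hp3 : p ≠ 3) (hV : IsElementaryAbelian 2 V)
    (hXV : X ≤ 𝐍 V) (hPX : P ≤ X) (hXP : X ≤ 𝐂 V ⊔ P) (hZ : P ⊓ 𝐂 V ≤ ⁅P, P⁆) (hSV : S ≤ 𝐍 V)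
    (hBV : B ≤ 𝐍 V) (hBX : B ≤ 𝐍 X) (h0 : ¬ B ≤ 𝐂 V) (hb : ∀ b ∈ B, b ^ 2 ∈ 𝐂 V)
    (hC : ∀ b ∈ B, (∀ x ∈ X, ⁅b, x⁆ ∈ 𝐂 V) → b ∈ 𝐂 V)
    (hi : (𝐂 B).relIndex V ≤ (𝐂 V).relIndex B ^ 2) :
    p = 5 ∧ ∀ r : ℕ, r.Prime → r ≠ 2 → r ≠ 5 → ∀ g ∈ 𝐍 V, g ∈ 𝐍 X →
      (∀ x ∈ X, ⁅g ^ r, x⁆ ∈ 𝐂 V) → ∀ x ∈ X, ⁅g, x⁆ ∈ 𝐂 V := by
  set φ := V.normalizerMonoidHom with hφ
  have hk : φ.ker = (𝐂 V).subgroupOf (𝐍 V) := normalizerMonoidHom_ker V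
  have k : ∀ a : 𝐍 V, φ a = 1 ↔ a.1 ∈ 𝐂 V := fun a => by rw [← MonoidHom.mem_ker, hk, mem_subgroupOf]
  have hc : ∀ A ≤ 𝐍 V, Nat.card ((A.subgroupOf (𝐍 V)).map φ) = (𝐂 V).relIndex A := fun A hA => by
    rw [← relIndex_ker, hk, relIndex_subgroupOf hA]
  have hPV := hPX.trans hXV
  have hE : (X.subgroupOf (𝐍 V)).map φ = (P.subgroupOf (𝐍 V)).map φ := by
    refine le_antisymm ?_ (map_mono (comap_mono hPX))
    rintro _ ⟨x, hx, rfl⟩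
    obtain ⟨a, ha, b, hb, e⟩ := (PG.mem_sup_iff_of_le_normalizer (norms_cent hPV)).1 (hXP hx)
    refine ⟨⟨b, hPV hb⟩, hb, ?_⟩
    rw [show x = ⟨a, cent_sub V ha⟩ * ⟨b, hPV hb⟩ from Subtype.ext e, map_mul,
      (k ⟨a, cent_sub V ha⟩).2 ha, one_mul]
  have kc : ∀ g : 𝐍 V, φ g ∈ 𝐂 ((X.subgroupOf (𝐍 V)).map φ) ↔ ∀ x ∈ X, ⁅g.1, x⁆ ∈ 𝐂 V := fun g => by
    refine ⟨fun h x hx => (k ⁅g, ⟨x, hXV hx⟩⁆).1 ?_, fun h => mem_cent.2 ?_⟩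
    · rw [map_commutatorElement, commutatorElement_eq_one_iff_mul_comm]
      exact (mem_cent.1 h _ (mem_map_of_mem φ hx)).symm
    · rintro _ ⟨x, hx, rfl⟩
      rw [eq_comm, ← commutatorElement_eq_one_iff_mul_comm, ← map_commutatorElement, k]
      exact h x hx
  have kn : ∀ g : 𝐍 V, g.1 ∈ 𝐍 X → φ g ∈ 𝐍 ((X.subgroupOf (𝐍 V)).map φ) := fun g hg =>
    le_normalizer_map φ (mem_map_of_mem φ (le_normalizer_comap _ hg))
  obtain ⟨h1, h3⟩ := core' (V := V) (fun v => Subtype.ext (by rw [← sq]; exact hV.2 v v.2)) hP.ne2 hp3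
    (E := (X.subgroupOf (𝐍 V)).map φ) (B := (B.subgroupOf (𝐍 V)).map φ) (by
      rw [hE]
      by_cases h : P ⊓ 𝐂 V = ⊥
      · exact ((hP.subgroupOf hPV hSV).map φ (by
          rw [hk, subgroupOf, subgroupOf, ← comap_inf, h]; exact bot_subgroupOf _)).card.imp_left fun h => ⟨h.1, h.2.1⟩
      have h4 : ⁅P, P⁆ ≠ ⊥ := fun e => h (le_bot_iff.1 (e ▸ hZ))
      have h5 : P ⊓ 𝐂 V = ⁅P, P⁆ := eq_of_le_of_card_ge hZ (by
        rcases (Nat.dvd_prime hp.out).1 (hP.cardZ h4 ▸ card_dvd_of_le hZ) with e | e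
        · exact absurd (card_eq_one.1 e) h
        · rw [e, hP.cardZ h4])
      refine .inl ⟨?_, ?_⟩
      · have h6 := card_eq_rel (𝐂 V) P
        rw [h5, hP.card_eq] at h6
        rw [hc P hPV]
        exact (Nat.eq_of_mul_eq_mul_right (cardG_gt0 _) h6).symm
      · rw [← map_commutator, Subgroup.map_eq_bot_iff, hk, commutator_le]
        exact fun a ha b hb => (h5.ge (commutator_mem_commutator ha hb)).2)
    (fun e => h0 fun b hb => (k ⟨b, hBV hb⟩).1 (mem_bot.1 (e.le (mem_map_of_mem φ hb))))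
    (by
      rintro _ ⟨b, hb', rfl⟩
      rw [← map_mul, k, ← sq]
      exact hb b hb')
    (by
      rintro _ ⟨b, hb', rfl⟩
      exact kn b (hBX hb'))
    (eq_bot_iff.2 (by
      rintro _ ⟨⟨b, hb', rfl⟩, h⟩
      exact (k b).2 (hC b hb' ((kc b).1 h))))
    (by
      rw [hc B hBV]
      refine le_of_eq_of_le ?_ hi
      rw [relIndex]
      congr 1
      ext v
      rw [mem_fxS, mem_subgroupOf, mem_cent]
      refine ⟨fun h b hb' => ?_, ?_⟩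
      · exact mul_inv_eq_iff_eq_mul.1
          (congrArg Subtype.val (h _ (mem_map_of_mem φ (x := ⟨b, hBV hb'⟩) hb')))
      · rintro h _ ⟨b, hb', rfl⟩
        exact Subtype.ext (mul_inv_eq_iff_eq_mul.2 (h b hb')))
  exact ⟨h1, fun r hr r2 r5 g hg hgX h => (kc ⟨g, hg⟩).1 (h3 r hr r2 r5 _ (kn _ hgX)
    (by rw [← map_pow]; exact (kc _).2 h))⟩

end Cfsg.Lib.QT.Xf
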