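import Cfsg.Agent.QT.XiPD
import Cfsg.Agent.FT.BG4.Aut
import Cfsg.Agent.Solv.CoprimeGen

/-! Odd `p`-groups of automorphisms of an elementary abelian `2`-group normalised by a `2F`-offender. -/

set_option autoImplicit false
set_option linter.unusedSectionVars false
set_option linter.unusedVariables false

open Pointwise Cfsg Cfsg.Lib.Solv Cfsg.Lib.FT Cfsg.Lib.FT.BG4 Subgroup
open scoped commutatorElement

namespace Cfsg.Lib.QT.Xf

section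
variable {V : Type*} [Group V]

/-- The fixed points of an automorphism. -/
def fx (y : MulAut V) : Subgroup V := y.toMonoidHom.eqLocus (MonoidHom.id V)

theorem fx_eq_1' : type_of% @fx.eq_1 := @fx.eq_1

theorem mem_fx {y : MulAut V} {v : V} : v ∈ fx y ↔ y v = v := Iff.rfl

/-- The fixed points of a group of automorphisms. -/
def fxS (S : Subgroup (MulAut V)) : Subgroup V := ⨅ y : S, fx (y : MulAut V)

theorem fxS_eq_1' : type_of% @fxS.eq_1 := @fxS.eq_1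

theorem mem_fxS {S : Subgroup (MulAut V)} {v : V} : v ∈ fxS S ↔ ∀ y ∈ S, y v = v := by
  simp [fxS, mem_iInf, mem_fx]

theorem fx_comm {a y : MulAut V} (h : a * y = y * a) {v : V} (hv : v ∈ fx y) : a v ∈ fx y := by
  rw [mem_fx] at hv ⊢
  rw [← MulAut.mul_apply, ← h, MulAut.mul_apply, hv]

theorem fix_of_sq {y : MulAut V} (hy : Odd (orderOf y)) {v : V} (h : y (y v) = v) : y v = v := by
  obtain ⟨m, hm⟩ := hy
  have h1 : y * y ∈ MulAction.stabilizer (MulAut V) v := h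
  have h2 : y = (y * y) ^ (m + 1) := by
    rw [← sq, ← pow_mul, show 2 * (m + 1) = orderOf y + 1 by omega, pow_succ, pow_orderOf_eq_one,
      one_mul]
  have h3 := pow_mem h1 (m + 1)
  rw [← h2] at h3
  exact h3

theorem fix_of_comm (h2 : ∀ v : V, v * v = 1) {y : MulAut V} (hy : Odd (orderOf y)) {v : V}
    (h : v⁻¹ * y v ∈ fx y) : y v = v := by
  refine fix_of_sq hy ?_
  have h1 : y v = v * (v⁻¹ * y v) := by group
  rw [h1, map_mul, mem_fx.1 h, h1, inv_mul_cancel_left, mul_assoc, h2, mul_one]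

theorem index_conj (g y : MulAut V) : (fx (g * y * g⁻¹)).index = (fx y).index := by
  rw [← index_comap_of_surjective (fx y) (f := (g⁻¹ : MulAut V).toMonoidHom) (g⁻¹).surjective]
  congr 1
  ext v
  rw [mem_comap, mem_fx, mem_fx, MulAut.mul_apply, MulAut.mul_apply]
  exact ⟨fun h => g.injective (h.trans (MulAut.apply_inv_self _ _ _).symm),
    fun h => (congrArg g h).trans (MulAut.apply_inv_self _ _ _)⟩

variable [Finite V]

theorem card_modEq {p n : ℕ} [Fact p.Prime] {y : MulAut V} {U : Subgroup V}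
    (hU : ∀ u ∈ U, y u ∈ U) (hy : ∀ u ∈ U, (y ^ p ^ n) u = u) :
    Nat.card U ≡ Nat.card ↥(U ⊓ fx y) [MOD p] := by
  classical
  have := Fintype.ofFinite U
  let f : Function.End U := fun u => ⟨y u, hU u u.2⟩
  have hf : ∀ (k : ℕ) (u : U), ((f ^ k) u : V) = (y ^ k) u := fun k => by
    induction k with
    | zero => intro u; rfl
    | succ k ih => intro u; rw [pow_succ, pow_succ, MulAut.mul_apply]; exact ih (f u)
  have h1 := Equiv.Perm.card_fixedPoints_modEq (f := f) (p := p) (n := n)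
    (funext fun u => Subtype.ext ((hf _ u).trans (hy u u.2)))
  rw [← Nat.card_eq_fintype_card, ← Nat.card_eq_fintype_card] at h1
  rwa [show Nat.card (Function.fixedPoints f) = Nat.card ↥(U ⊓ fx y) from
    Nat.card_congr ⟨fun u => ⟨u.1, u.1.2, congrArg Subtype.val u.2⟩,
      fun u => ⟨⟨u.1, u.2.1⟩, Subtype.ext u.2.2⟩, fun _ => rfl, fun _ => rfl⟩] at h1

theorem card_eq_rel (A U : Subgroup V) : Nat.card U = A.relIndex U * Nat.card ↥(U ⊓ A) := by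
  rw [← inf_relIndex_right, inf_comm, mul_comm, ← Nat.card_congr
    (subgroupOfEquivOfLe (inf_le_left : U ⊓ A ≤ U)).toEquiv]
  exact (card_mul_index _).symm

theorem two_grp (h2 : ∀ v : V, v * v = 1) : IsPGroup 2 V := fun v => ⟨1, by rw [pow_one, sq, h2]⟩

theorem rel_modEq (h2 : ∀ v : V, v * v = 1) {p n : ℕ} [hp : Fact p.Prime] (hp2 : p ≠ 2)
    {y : MulAut V} {U : Subgroup V} (hU : ∀ u ∈ U, y u ∈ U) (hy : y ^ p ^ n = 1) :
    (fx y).relIndex U ≡ 1 [MOD p] ∧ ∃ k, (fx y).relIndex U = 2 ^ k := by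
  have : Fact (Nat.Prime 2) := ⟨Nat.prime_two⟩
  have h1 := card_modEq hU (fun u _ => by rw [hy]; rfl)
  obtain ⟨m, hm⟩ := IsPGroup.iff_card.1 ((two_grp h2).to_subgroup (U ⊓ fx y))
  obtain ⟨l, hl⟩ := IsPGroup.iff_card.1 ((two_grp h2).to_subgroup U)
  have h3 := card_eq_rel (fx y) U
  refine ⟨?_, ?_⟩
  · rw [h3, hm] at h1
    refine Nat.ModEq.cancel_right_of_coprime (c := 2 ^ m) ?_ (by rwa [one_mul])
    exact ((Nat.coprime_primes hp.out Nat.prime_two).2 hp2).pow_right m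
  · obtain ⟨k, -, hk⟩ := (Nat.dvd_prime_pow Nat.prime_two).1 (hl ▸ Dvd.intro _ h3.symm)
    exact ⟨k, hk⟩

theorem exists_fix {B : Subgroup (MulAut V)} (hB : IsPGroup 2 B) {W : Subgroup V}
    (hW : ∀ b ∈ B, ∀ w ∈ W, b w ∈ W) (h2 : 2 ∣ Nat.card W) : ∃ w ∈ W, w ≠ 1 ∧ w ∈ fxS B := by
  have : Fact (Nat.Prime 2) := ⟨Nat.prime_two⟩
  let Ω : SubMulAction B V := ⟨W, fun b w hw => hW b b.2 w hw⟩
  obtain ⟨w, hw, h1⟩ := hB.exists_fixed_point_of_prime_dvd_card_of_fixed_point Ω h2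
    (a := ⟨1, W.one_mem⟩) (fun b => Subtype.ext (map_one (b : MulAut V)))
  exact ⟨w, w.2, fun e => h1 (Subtype.ext e.symm), mem_fxS.2 fun y hy =>
    congrArg Subtype.val (hw ⟨y, hy⟩)⟩

end

variable {V : Type*} [CommGroup V] [Finite V]

/-- The commutator map of an automorphism of an abelian group. -/
def kp (y : MulAut V) : V →* V := (MonoidHom.id V)⁻¹ * y.toMonoidHom

theorem kp_eq_1' : type_of% @kp.eq_1 := @kp.eq_1

theorem kp_apply (y : MulAut V) (v : V) : kp y v = v⁻¹ * y v := rfl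

theorem ker_kp (y : MulAut V) : (kp y).ker = fx y := by
  ext v
  rw [MonoidHom.mem_ker, kp_apply, inv_mul_eq_one, mem_fx, eq_comm]

theorem card_kp (y : MulAut V) (U : Subgroup V) : Nat.card (U.map (kp y)) = (fx y).relIndex U := by
  rw [← ker_kp, relIndex_ker]

theorem kp_eq_one (h2 : ∀ v : V, v * v = 1) {y : MulAut V} (hy : Odd (orderOf y)) {v : V}
    (h : kp y v ∈ fx y) : kp y v = 1 := by
  rw [kp_apply, fix_of_comm h2 hy (v := v) h, inv_mul_cancel]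

/-- An automorphism of odd order inverted by an involution. -/
theorem dih (h2 : ∀ v : V, v * v = 1) {a y : MulAut V} (ha : a * a = 1) (hay : a * y = y⁻¹ * a)
    (hy : Odd (orderOf y)) {U : Subgroup V} (haU : ∀ u ∈ U, a u ∈ U) (hyU : ∀ u ∈ U, y⁻¹ u ∈ U)
    (hyU' : ∀ u ∈ U, y u ∈ U) :
    ∃ s, (fx y).relIndex U = s ^ 2 ∧ s ≤ (fx a).relIndex U := by
  set W := U.map (kp y) with hW
  have hi : ∀ v : V, v⁻¹ = v := fun v => inv_eq_of_mul_eq_one_left (h2 v)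
  have hWU : W ≤ U := by
    rintro _ ⟨u, hu, rfl⟩
    exact mul_mem (inv_mem hu) (hyU' u hu)
  have haW : ∀ w ∈ W, a w ∈ W := by
    rintro _ ⟨u, hu, rfl⟩
    refine ⟨y⁻¹ (a u), hyU _ (haU u hu), ?_⟩
    rw [kp_apply, kp_apply, map_mul, map_inv, ← MulAut.mul_apply _ a y, hay, MulAut.mul_apply,
      MulAut.apply_inv_self, hi, hi, mul_comm]
  have hyW : ∀ w ∈ W, y w ∈ W := by
    rintro _ ⟨u, hu, rfl⟩
    exact ⟨y u, hyU' u hu, by rw [kp_apply, kp_apply, map_mul, map_inv]⟩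
  have h1 : (fx a).relIndex W ≤ Nat.card ↥(W ⊓ fx a) := by
    rw [← card_kp]
    refine card_le_of_le ?_
    rintro _ ⟨w, hw, rfl⟩
    refine ⟨W.mul_mem (W.inv_mem hw) (haW w hw), ?_⟩
    show a (w⁻¹ * a w) = w⁻¹ * a w
    rw [map_mul, map_inv, ← MulAut.mul_apply _ a a, ha, MulAut.one_apply, hi, hi, mul_comm]
  have h3 : Nat.card ↥(W ⊓ fx a) ≤ (fx a).relIndex W := by
    have h4 : (W ⊓ fx a).map y.toMonoidHom ⊓ fx a = ⊥ := by
      rw [eq_bot_iff]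
      rintro _ ⟨⟨w, ⟨⟨u, hu, rfl⟩, hw⟩, rfl⟩, hw'⟩
      have h5 : a (y (kp y u)) = y (kp y u) := hw'
      rw [← MulAut.mul_apply, hay, MulAut.mul_apply, mem_fx.1 hw] at h5
      have h6 : y (y (kp y u)) = kp y u := by rw [← h5, MulAut.apply_inv_self]
      rw [kp_eq_one h2 hy (fix_of_sq hy h6), map_one]
      exact one_mem _
    have h5 := card_eq_rel (fx a) ((W ⊓ fx a).map y.toMonoidHom)
    rw [h4, card_bot, mul_one, card_map_of_injective y.injective] at h5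
    rw [h5]
    refine relIndex_le_of_le_right ?_ index_ne_zero_of_finite
    rintro _ ⟨w, hw, rfl⟩
    exact hyW w hw.1
  refine ⟨(fx a).relIndex W, ?_, relIndex_le_of_le_right hWU index_ne_zero_of_finite⟩
  rw [← card_kp, ← hW, card_eq_rel (fx a) W, sq, le_antisymm h3 h1]

theorem dih' (h2 : ∀ v : V, v * v = 1) {p n : ℕ} [hp : Fact p.Prime] (hp2 : p ≠ 2) (hp3 : p ≠ 3)
    {a y : MulAut V} (ha : a * a = 1) (hay : a * y = y⁻¹ * a) (hy : y ^ p ^ n = 1)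
    {U : Subgroup V} (haU : ∀ u ∈ U, a u ∈ U) (hyU : ∀ u ∈ U, y⁻¹ u ∈ U)
    (hyU' : ∀ u ∈ U, y u ∈ U) (hn : ¬ U ≤ fx y) :
    ∃ s, (fx y).relIndex U = s ^ 2 ∧ s ≤ (fx a).relIndex U ∧ 4 ≤ s ∧ s ^ 2 ≡ 1 [MOD p] := by
  obtain ⟨s, h1, h3⟩ := dih h2 ha hay (Odd.of_dvd_nat (hp.out.odd_of_ne_two hp2).pow
    (orderOf_dvd_of_pow_eq_one hy)) haU hyU hyU'
  obtain ⟨h4, k, h5⟩ := rel_modEq h2 hp2 hyU' hy
  rw [h1] at h4 h5
  refine ⟨s, h1, h3, ?_, h4⟩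
  by_contra h6
  have h7 : s < 4 := by omega
  interval_cases s
  · exact absurd h5.symm (by positivity)
  · exact hn (relIndex_eq_one.1 h1)
  · exact hp3 ((Nat.prime_dvd_prime_iff_eq hp.out Nat.prime_three).1
      ((Nat.modEq_iff_dvd' (by norm_num)).1 h4.symm))
  · have h8 : 3 ∣ 2 ^ k := h5 ▸ by norm_num
    exact absurd (Nat.prime_three.dvd_of_dvd_pow h8) (by norm_num)

theorem odd_of_pow {Γ : Type*} [Group Γ] {p n : ℕ} [hp : Fact p.Prime] (hp2 : p ≠ 2) {y : Γ}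
    (hy : y ^ p ^ n = 1) : Odd (orderOf y) :=
  Odd.of_dvd_nat (hp.out.odd_of_ne_two hp2).pow (orderOf_dvd_of_pow_eq_one hy)

/-- A `2F`-offender acting faithfully on a `p`-group, `p ≥ 5`, contains a small involution. -/
theorem stepA (h2 : ∀ v : V, v * v = 1) {p : ℕ} [hp : Fact p.Prime] (hp2 : p ≠ 2) (hp3 : p ≠ 3)
    {E : Subgroup (MulAut V)} (hE : IsPGroup p E) (n : ℕ) : ∀ B : Subgroup (MulAut V),
    Nat.card B = n → B ≠ ⊥ → (∀ b ∈ B, b * b = 1) → B ≤ 𝐍 E → B ⊓ 𝐂 E = ⊥ →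
      (fxS B).index ≤ Nat.card B ^ 2 → ∃ a ∈ B, a ≠ 1 ∧ (fx a).index ≤ 4 := by
  have : Fact (Nat.Prime 2) := ⟨Nat.prime_two⟩
  induction n using Nat.strong_induction_on with
  | _ n ih =>
  intro B hn h0 hb hN hC hi
  have hc : ∀ a ∈ B, ∀ b ∈ B, a * b = b * a := fun a ha b hb' => by
    rw [← inv_eq_of_mul_eq_one_left (hb _ (mul_mem ha hb')), mul_inv_rev,
      inv_eq_of_mul_eq_one_left (hb a ha), inv_eq_of_mul_eq_one_left (hb b hb')]
  have : IsMulCommutative B := ⟨⟨fun a b => Subtype.ext (hc a a.2 b b.2)⟩⟩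
  have hB : IsPGroup 2 B := fun b => ⟨1, Subtype.ext (by rw [pow_one, sq]; exact hb b b.2)⟩
  obtain ⟨B', h1, h3, h4⟩ : ∃ B' ≤ B, B'.relIndex B = 2 ∧ ¬ E ⊓ 𝐂 B' ≤ 𝐂 B := by
    by_contra! h
    exact h0 (by rw [← hC, inf_eq_left.2 (centsC.1 (Coprime.le_of_forall_hyperplane (p := 2)
      (fun a ha => by rw [sq, hb a ha]) h0 hN (pgroup_coprime_of_ne hB hE hp2.symm) h))])
  obtain ⟨x, ⟨hxE, hxB⟩, hx⟩ := SetLike.not_le_iff_exists.1 h4
  obtain ⟨a, ha, hax⟩ : ∃ a ∈ B, a * x ≠ x * a := by simpa [mem_centralizer_iff] using hx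
  have hcard : Nat.card B = 2 * Nat.card B' := by
    rw [card_eq_rel B' B, h3, inf_eq_right.2 h1]
  have hai : a⁻¹ = a := inv_eq_of_mul_eq_one_left (hb a ha)
  by_cases hB' : B' = ⊥
  · refine ⟨a, ha, fun e => hax (by rw [e, one_mul, mul_one]), ?_⟩
    rw [hcard, hB', card_bot] at hi
    exact (index_antitone fun v hv => mem_fxS.1 hv a ha).trans hi
  set y := x⁻¹ * (a * x * a⁻¹) with hy
  obtain ⟨m, hm⟩ := hE ⟨y, mul_mem (inv_mem hxE) ((memJ_norm (hN ha)).2 hxE)⟩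
  have hm' : y ^ p ^ m = 1 := congrArg Subtype.val hm
  have hyB : y ∈ 𝐂 B' := mul_mem (inv_mem hxB) (mul_mem (mul_mem
    (mem_cent.2 fun b hb' => hc b (h1 hb') a ha) hxB)
    (mem_cent.2 fun b hb' => hc b (h1 hb') _ (inv_mem ha)))
  have hinv : ∀ g ∈ 𝐂 B', ∀ u ∈ fxS B', g u ∈ fxS B' := fun g hg u hu => mem_fxS.2 fun b hb' => by
    rw [← MulAut.mul_apply, mem_cent.1 hg b hb', MulAut.mul_apply, mem_fxS.1 hu b hb']
  obtain ⟨s, -, h5, h6, -⟩ := dih' h2 hp2 hp3 (hb a ha) (y := y)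
    (by rw [hy, mul_inv_rev, mul_inv_rev, mul_inv_rev, hai]; simp [mul_assoc, hb a ha, hai]) hm'
    (hinv a (mem_cent.2 fun b hb' => hc b (h1 hb') a ha)) (hinv _ (inv_mem hyB)) (hinv _ hyB)
    (fun hle => by
      obtain ⟨_, ⟨v, -, rfl⟩, h7, h8⟩ := exists_fix (hB.to_le h1) (W := (⊤ : Subgroup V).map (kp y))
        (by
          rintro b hb' _ ⟨v, -, rfl⟩
          refine ⟨b v, mem_top _, ?_⟩
          rw [kp_apply, kp_apply, map_mul, map_inv, ← MulAut.mul_apply _ b y, mem_cent.1 hyB b hb',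
            MulAut.mul_apply _ y b])
        (by
          obtain ⟨-, k, hk⟩ := rel_modEq h2 hp2 (U := ⊤) (fun _ _ => mem_top _) hm'
          rw [card_kp, hk]
          refine dvd_pow_self 2 fun e => hax ?_
          rw [e, pow_zero, relIndex_eq_one] at hk
          have h7 : y = 1 := MulEquiv.ext fun v => hk (mem_top v)
          rw [hy, inv_mul_eq_one, eq_mul_inv_iff_mul_eq] at h7
          exact h7.symm)
      exact h7 (kp_eq_one h2 (odd_of_pow hp2 hm') (hle h8)))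
  have h7 : fxS B ≤ fx a ⊓ fxS B' := fun v hv =>
    ⟨mem_fxS.1 hv a ha, mem_fxS.2 fun b hb' => mem_fxS.1 hv b (h1 hb')⟩
  have h8 := index_antitone h7
  rw [← relIndex_mul_index (inf_le_right : fx a ⊓ fxS B' ≤ _), inf_relIndex_right] at h8
  obtain ⟨c, hc1, hc2⟩ := ih _ (by have := cardG_gt0 B'; omega) B' rfl hB'
    (fun b hb' => hb b (h1 hb')) (h1.trans hN) (eq_bot_iff.2 ((inf_le_inf_right _ h1).trans hC.le))
    (by rw [hcard] at hi; nlinarith)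
  exact ⟨c, h1 hc1, hc2⟩

theorem i16 (h2 : ∀ v : V, v * v = 1) {n : ℕ} {y : MulAut V} (hy : y ^ 5 ^ n = 1) {U : Subgroup V}
    (hU : ∀ u ∈ U, y u ∈ U) (hn : ¬ U ≤ fx y) : 16 ≤ (fx y).relIndex U := by
  have : Fact (Nat.Prime 5) := ⟨Nat.prime_five⟩
  obtain ⟨h1, k, hk⟩ := rel_modEq h2 (by norm_num) hU hy
  rw [← relIndex_eq_one, hk] at hn
  rw [hk] at h1 ⊢
  by_cases h : k < 4
  · interval_cases k <;> simp_all [Nat.ModEq]
  · exact Nat.pow_le_pow_right (n := 2) (i := 4) two_pos (by omega)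

variable {E : Subgroup (MulAut V)}

theorem pow5 (hE : IsPGroup 5 E) {y : MulAut V} (hy : y ∈ E) : ∃ n, y ^ 5 ^ n = 1 := by
  obtain ⟨n, hn⟩ := hE ⟨y, hy⟩
  exact ⟨n, congrArg Subtype.val hn⟩

theorem odd5 (hE : IsPGroup 5 E) {y : MulAut V} (hy : y ∈ E) : Odd (orderOf y) := by
  have : Fact (Nat.Prime 5) := ⟨Nat.prime_five⟩
  obtain ⟨n, hn⟩ := pow5 hE hy
  exact odd_of_pow (by norm_num) hn

theorem q16 (h2 : ∀ v : V, v * v = 1) (hE : IsPGroup 5 E) (hc : E ≤ 𝐂 E) (h16 : 16 < Nat.card E)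
    {y : MulAut V} (hy : y ∈ E) (hi : (fx y).index = 16) : ¬ fx y ≤ fxS E := fun hle => by
  obtain ⟨v, -, hv⟩ := SetLike.not_le_iff_exists.1 fun h : ⊤ ≤ fx y => by
    rw [top_le_iff.1 h, index_top] at hi; omega
  obtain ⟨e, e', h1, h3⟩ : ∃ e e' : E, ((e.1 v : V) : V ⧸ fx y) = (e'.1 v : V) ∧ e ≠ e' := by
    by_contra! h
    have := Nat.card_le_card_of_injective (fun e : E => ((e.1 v : V) : V ⧸ fx y)) h
    rw [← index_eq_card] at this
    omega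
  have hd : e.1⁻¹ * e'.1 ∈ E := mul_mem (inv_mem e.2) e'.2
  have h4 : v⁻¹ * (e.1⁻¹ * e'.1) v ∈ fxS E := by
    have h5 := hle (QuotientGroup.eq.1 h1)
    have h6 := mem_fxS.1 h5 _ (inv_mem e.2)
    rw [map_mul, map_inv, MulAut.inv_apply_self] at h6
    rwa [MulAut.mul_apply, h6]
  have h5 : v ∈ fx (e.1⁻¹ * e'.1) := fix_of_comm h2 (odd5 hE hd) (v := v) (mem_fxS.1 h4 _ hd)
  obtain ⟨n, hn⟩ := pow5 hE hy
  have h6 := i16 h2 hn (U := fx (e.1⁻¹ * e'.1)) (fun u hu => fx_comm (mem_cent.1 (hc hd) y hy) hu)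
    fun h => hv (h h5)
  have h7 := relIndex_mul_index (H := fx y) (K := fx (e.1⁻¹ * e'.1))
    fun u hu => mem_fxS.1 (hle hu) _ hd
  have h8 : (fx (e.1⁻¹ * e'.1)).index ≠ 0 := index_ne_zero_of_finite
  have h9 : fx (e.1⁻¹ * e'.1) = ⊤ := index_eq_one.1 (by
    by_contra h
    have : 2 ≤ (fx (e.1⁻¹ * e'.1)).index := by omega
    nlinarith)
  exact h3 (Subtype.ext (inv_mul_eq_one.1 (MulEquiv.ext fun u => (h9.ge (mem_top u) :))))

theorem tri (h2 : ∀ v : V, v * v = 1) (hE : IsPGroup 5 E) (hc : E ≤ 𝐂 E) (h16 : 16 < Nat.card E)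
    {y₀ y₁ y₂ : MulAut V} (m0 : y₀ ∈ E) (m1 : y₁ ∈ E) (m2 : y₂ ∈ E) (i0 : (fx y₀).index = 16)
    (i1 : (fx y₁).index = 16) (i2 : (fx y₂).index = 16) (h01 : fx y₀ ⊓ fx y₁ ≤ fxS E)
    (h02 : fx y₀ ⊓ fx y₂ ≤ fxS E) (h12 : fx y₁ ⊓ fx y₂ ≤ fxS E) : False := by
  obtain ⟨n, hn⟩ := pow5 hE m1
  have h1 := i16 h2 hn (U := fx y₀) (fun u hu => fx_comm (mem_cent.1 (hc m0) y₁ m1) hu)
    fun h => q16 h2 hE hc h16 m0 i0 ((le_inf le_rfl h).trans h01)
  have h3 := relIndex_mul_index (le_sup_right : fx y₁ ≤ fx y₀ ⊔ fx y₁)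
  rw [relIndex_sup_right] at h3
  have h4 : (fx y₀ ⊔ fx y₁).index ≠ 0 := index_ne_zero_of_finite
  have h5 : fx y₀ ⊔ fx y₁ = ⊤ := index_eq_one.1 (by
    by_contra h
    have : 2 ≤ (fx y₀ ⊔ fx y₁).index := by omega
    nlinarith)
  refine q16 h2 hE hc h16 m2 i2 fun v hv => ?_
  obtain ⟨a, ha, b, hb, rfl⟩ := mem_sup.1 (h5.ge (mem_top v))
  have h6 : a⁻¹ * y₂ a = b * (y₂ b)⁻¹ := by
    rw [mem_fx, map_mul] at hv
    rw [inv_mul_eq_iff_eq_mul, ← mul_assoc, ← hv, mul_inv_cancel_right]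
  have h7 : a⁻¹ * y₂ a ∈ fxS E := h01 (mem_inf.2 ⟨mul_mem (inv_mem ha)
    (fx_comm (mem_cent.1 (hc m0) y₂ m2) ha),
    h6 ▸ mul_mem hb (inv_mem (fx_comm (mem_cent.1 (hc m1) y₂ m2) hb))⟩)
  have h8 : a ∈ fx y₂ := fix_of_comm h2 (odd5 hE m2) (v := a) (mem_fxS.1 h7 _ m2)
  exact mul_mem (h02 ⟨ha, h8⟩) (h12 ⟨hb, (mul_mem_cancel_left h8).1 hv⟩)

theorem inf_le_fxS {a b : MulAut V} (h : E ≤ zpowers a ⊔ zpowers b) : fx a ⊓ fx b ≤ fxS E :=
  fun v hv => mem_fxS.2 fun y hy => (sup_le (zpowers_le.2 hv.1) (zpowers_le.2 hv.2) :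
    _ ≤ MulAction.stabilizer (MulAut V) v) (h hy)

theorem tri' (h2 : ∀ v : V, v * v = 1) (hE : IsPGroup 5 E) (hc : E ≤ 𝐂 E) (h16 : 16 < Nat.card E)
    {y g : MulAut V} (hy : y ∈ E) (hg : g ∈ 𝐍 E) (hi : (fx y).index = 16)
    (h1 : E ≤ zpowers y ⊔ zpowers (g * y * g⁻¹))
    (h3 : E ≤ zpowers y ⊔ zpowers (g * g * y * (g * g)⁻¹)) : False := by
  refine tri h2 hE hc h16 hy ((memJ_norm hg).2 hy) ((memJ_norm (mul_mem hg hg)).2 hy) hi
    ((index_conj _ _).trans hi) ((index_conj _ _).trans hi) (inf_le_fxS h1) (inf_le_fxS h3)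
    fun v hv => mem_fxS.2 fun e he => ?_
  have h4 : g⁻¹ v ∈ fxS E := inf_le_fxS h1 ⟨g.injective ?_, g.injective ?_⟩
  · have h5 := mem_fxS.1 h4 _ ((memJ_norm (inv_mem hg)).2 he)
    rw [inv_inv, MulAut.mul_apply, MulAut.mul_apply, MulAut.apply_inv_self] at h5
    exact (g⁻¹).injective h5
  · exact (mem_fx.1 hv.1).trans (MulAut.apply_inv_self _ _ _).symm
  · refine Eq.trans ?_ ((mem_fx.1 hv.2).trans (MulAut.apply_inv_self _ _ _).symm)
    rw [mul_inv_rev]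
    rfl

theorem line {Γ : Type*} [Group Γ] [Finite Γ] {E : Subgroup Γ} (hE : Nat.card E = 25) {r : ℕ}
    (hr : r.Prime) (h2 : r ≠ 2) (h5 : r ≠ 5) {g y : Γ} (hg : g ∈ 𝐍 E) (hgr : g ^ r ∈ 𝐂 E)
    (hgc : g ∉ 𝐂 E) (hy : y ∈ E) (hy1 : y ≠ 1) : E ≤ zpowers y ⊔ zpowers (g * y * g⁻¹) := by
  have : Fact r.Prime := ⟨hr⟩
  have hdiv : ∀ K ≤ E, Nat.card K = 1 ∨ Nat.card K = 5 ∨ Nat.card K = 25 := fun K hK => by
    obtain ⟨k, hk, e⟩ := (Nat.dvd_prime_pow Nat.prime_five).1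
      ((card_dvd_of_le hK).trans (hE.trans (by norm_num : 25 = 5 ^ 2)).dvd)
    interval_cases k <;> simp [e]
  have hmod : ∀ K ≤ E, (∀ u ∈ K, g * u * g⁻¹ ∈ K) →
      Nat.card K ≡ Nat.card ↥(K ⊓ fx (MulAut.conj g)) [MOD r] := fun K hK hn =>
    card_modEq (n := 1) hn fun u hu => by
      rw [pow_one, ← map_pow, MulAut.conj_apply, ← mem_cent.1 hgr u (hK hu), mul_inv_cancel_right]
  have hr4 : ¬ r ∣ 20 := fun h => by
    rcases (Nat.Prime.dvd_mul hr).1 (show r ∣ 2 ^ 2 * 5 from h) with h | h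
    · exact h2 ((Nat.prime_dvd_prime_iff_eq hr Nat.prime_two).1 (hr.dvd_of_dvd_pow h))
    · exact h5 ((Nat.prime_dvd_prime_iff_eq hr Nat.prime_five).1 h)
  have hK : zpowers y ⊔ zpowers (g * y * g⁻¹) ≤ E :=
    sup_le (zpowers_le.2 hy) (zpowers_le.2 ((memJ_norm hg).2 hy))
  by_contra hn
  have h1 : Nat.card ↥(zpowers y ⊔ zpowers (g * y * g⁻¹)) < 25 :=
    hE ▸ card_lt_of_lt (lt_of_le_of_ne hK fun e => hn e.ge)
  have h3 : Nat.card ↥(zpowers y) ≠ 1 := fun e => hy1 (zpowers_eq_bot.1 (card_eq_one.1 e))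
  have h4 := card_le_of_le (le_sup_left : zpowers y ≤ zpowers y ⊔ zpowers (g * y * g⁻¹))
  have h6 := hdiv _ hK
  have h7 := hdiv _ (zpowers_le.2 hy)
  have h8 : zpowers y = zpowers y ⊔ zpowers (g * y * g⁻¹) := eq_of_le_of_card_ge le_sup_left (by omega)
  have h9 := hmod _ (zpowers_le.2 hy) (by
    rintro _ ⟨k, rfl⟩
    rw [← conj_zpow]
    exact zpow_mem (h8.ge (mem_sup_right (mem_zpowers _))) k)
  have h10 := hdiv (zpowers y ⊓ fx (MulAut.conj g)) (inf_le_left.trans (zpowers_le.2 hy))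
  have h11 := card_le_of_le (inf_le_left : zpowers y ⊓ fx (MulAut.conj g) ≤ _)
  have h12 := card_le_of_le (inf_le_inf_right (fx (MulAut.conj g)) (zpowers_le.2 hy))
  have h13 := hmod E le_rfl fun u hu => (memJ_norm hg).2 hu
  have h14 := hdiv (E ⊓ fx (MulAut.conj g)) inf_le_left
  have h15 : Nat.card ↥(E ⊓ fx (MulAut.conj g)) < 25 := hE ▸ card_lt_of_lt (lt_of_le_of_ne
    inf_le_left fun e => hgc (mem_cent.2 fun u hu => (mul_inv_eq_iff_eq_mul.1 (e.ge hu).2).symm))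
  rw [show Nat.card ↥(zpowers y) = 5 by omega] at h9 h11
  rcases h10 with h | h | h
  · rw [h] at h9
    exact hr4 (((Nat.modEq_iff_dvd' (by norm_num)).1 h9.symm).trans (by norm_num))
  · rw [hE, show Nat.card ↥(E ⊓ fx (MulAut.conj g)) = 5 by omega] at h13
    exact hr4 ((Nat.modEq_iff_dvd' (by norm_num)).1 h13.symm)
  · omega

/-- Coprime action on a `p`-group, trivial modulo the derived group. -/
theorem cent_of_comm {Γ : Type*} [Group Γ] [Finite Γ] {p m : ℕ} [Fact p.Prime] {P : Subgroup Γ}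
    (hP : IsPGroup p P) {g : Γ} (hg : g ∈ 𝐍 P) (hm : m.Coprime p) (hgm : g ^ m ∈ 𝐂 P)
    (h : ∀ x ∈ P, g * x * g⁻¹ * x⁻¹ ∈ ⁅P, P⁆) : g ∈ 𝐂 P := by
  have k : ∀ a : 𝐍 P, P.normalizerMonoidHom a = 1 ↔ a.1 ∈ 𝐂 P := fun a => by
    rw [← MonoidHom.mem_ker, normalizerMonoidHom_ker, mem_subgroupOf]
  have := hP.isNilpotent
  refine (k ⟨g, hg⟩).1 (mulAut_eq_one_of_frattini hP (hm.coprime_dvd_left
    (orderOf_dvd_of_pow_eq_one (by rw [← map_pow]; exact (k _).2 hgm))) fun x =>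
      commutator_le_frattini_of_isNilpotent ?_)
  rw [← mem_map_iff_mem P.subtype_injective, map_commutator_top]
  exact h x x.2

theorem core (h2 : ∀ v : V, v * v = 1) {p : ℕ} [hp : Fact p.Prime] (hp2 : p ≠ 2) (hp3 : p ≠ 3)
    (hE : (Nat.card E = p ^ 2 ∧ ⁅E, E⁆ = ⊥) ∨ (Nat.card E = p ^ 3 ∧ ⁅E, E⁆ ≠ ⊥))
    {B : Subgroup (MulAut V)} (h0 : B ≠ ⊥) (hb : ∀ b ∈ B, b * b = 1) (hN : B ≤ 𝐍 E)
    (hC : B ⊓ 𝐂 E = ⊥) (hi : (fxS B).index ≤ Nat.card B ^ 2) :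
    p = 5 ∧ ∀ r : ℕ, r.Prime → r ≠ 2 → r ≠ 5 → ∀ g ∈ 𝐍 E, g ^ r ∈ 𝐂 E → g ∈ 𝐂 E := by
  have hP : IsPGroup p E := by rcases hE with h | h <;> exact IsPGroup.of_card h.1
  obtain ⟨a, ha, ha1, h4⟩ := stepA h2 hp2 hp3 hP _ B rfl h0 hb hN hC hi
  obtain ⟨x, hx, hxE⟩ : ∃ x ∈ E, a * x * a⁻¹ * x⁻¹ ∉ ⁅E, E⁆ := by
    by_contra! h
    exact ha1 (mem_bot.1 (hC.le ⟨ha, cent_of_comm hP (hN ha) (m := 2) ((Nat.coprime_primes
      Nat.prime_two hp.out).2 hp2.symm) (by rw [sq, hb a ha]; exact one_mem _) h⟩))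
  have hai : a⁻¹ = a := inv_eq_of_mul_eq_one_left (hb a ha)
  obtain ⟨y, hy⟩ : ∃ y, y = a * x * a⁻¹ * x⁻¹ := ⟨_, rfl⟩
  have hyE : y ∈ E := hy ▸ mul_mem ((memJ_norm (hN ha)).2 hx) (inv_mem hx)
  rw [← hy] at hxE
  have hy1 : y ≠ 1 := fun e => hxE (e ▸ one_mem _)
  obtain ⟨m, hm⟩ := hP ⟨y, hyE⟩
  obtain ⟨s, h5, h6, h7, h8⟩ := dih' h2 hp2 hp3 (hb a ha) (y := y)
    (by rw [hy]; simp [mul_assoc, hb a ha, hai, ← mul_assoc a a]) (congrArg Subtype.val hm)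
    (U := ⊤) (fun _ _ => mem_top _) (fun _ _ => mem_top _) (fun _ _ => mem_top _)
    fun h => hy1 (MulEquiv.ext fun v => h (mem_top v))
  rw [relIndex_top_right] at h5 h6
  obtain rfl : s = 4 := by omega
  obtain rfl : p = 5 := ((Nat.Prime.dvd_mul hp.out).1 (show p ∣ 3 * 5 from
    (Nat.modEq_iff_dvd' (by norm_num)).1 h8.symm)).elim
      (fun h => absurd ((Nat.prime_dvd_prime_iff_eq hp.out Nat.prime_three).1 h) hp3)
      (Nat.prime_dvd_prime_iff_eq hp.out Nat.prime_five).1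
  refine ⟨rfl, fun r hr r2 r5 g hg hgr => ?_⟩
  rcases hE with h | h
  · by_contra hgc
    refine tri' h2 hP (commutator_eq_bot_iff_le_centralizer.1 h.2) (by rw [h.1]; norm_num) hyE hg h5
      (line h.1 hr r2 r5 hg hgr hgc hyE hy1) (line h.1 hr r2 r5 (mul_mem hg hg) ?_ (fun e => hgc ?_)
        hyE hy1)
    · rw [← sq, ← pow_mul, mul_comm, pow_mul]; exact pow_mem hgr 2
    · obtain ⟨k, rfl⟩ := hr.odd_of_ne_two r2
      rw [pow_succ, pow_mul, sq] at hgr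
      exact (mul_mem_cancel_left (pow_mem e k)).1 hgr
  obtain ⟨hZ, hc⟩ := p3group_center h.1 fun e => h.2 (abelian_iff_der.1 e)
  have hZc : ⁅E, E⁆ ≤ 𝐂 E := hZ.ge.trans inf_le_right
  obtain ⟨w, hw, hwy⟩ : ∃ w ∈ E, w * y ≠ y * w := by
    by_contra! e
    exact hxE (hZ.le ⟨hyE, mem_cent.2 e⟩)
  have hle : ⁅E, E⁆ ⊔ zpowers y ≤ E := sup_le (der_sub E) (zpowers_le.2 hyE)
  have key : ∀ u ∈ E, u * y ≠ y * u → ⁅E, E⁆ ⊔ zpowers y ≤ zpowers y ⊔ zpowers (u * y * u⁻¹) :=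
    fun u hu huy => by
    have h9 : u * y * u⁻¹ * y⁻¹ ∈ ⁅E, E⁆ := commutator_mem_commutator hu hyE
    have h10 : zpowers (u * y * u⁻¹ * y⁻¹) = ⁅E, E⁆ := eq_of_le_of_card_ge (zpowers_le.2 h9) (by
      rcases (Nat.dvd_prime Nat.prime_five).1 (hc ▸ card_dvd_of_le (zpowers_le.2 h9)) with e | e
      · rw [card_eq_one, zpowers_eq_bot, mul_inv_eq_one, mul_inv_eq_iff_eq_mul] at e
        exact absurd e huy
      · rw [e, hc])
    exact sup_le (h10.ge.trans (zpowers_le.2 (mul_mem (mem_sup_right (mem_zpowers _))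
      (inv_mem (mem_sup_left (mem_zpowers _)))))) le_sup_left
  refine (tri' h2 (hP.to_le hle) ?_ ?_ (mem_sup_right (mem_zpowers y))
    (sub_der1_norm le_sup_left hle hw) h5 (key w hw hwy) (key _ (mul_mem hw hw) fun e => hwy ?_)).elim
  · rw [cent_sup]
    refine sup_le (le_inf (hZc.trans (centS (der_sub E))) (hZc.trans (centS (zpowers_le.2 hyE))))
      (le_inf (centsC.1 (hZc.trans (centS (zpowers_le.2 hyE)))) (le_centralizer _))
  · obtain ⟨k, hk⟩ := IsPGroup.iff_card.1 (hP.to_le hle)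
    have h9 := card_lt_of_lt (lt_of_le_of_ne (le_sup_left : ⁅E, E⁆ ≤ ⁅E, E⁆ ⊔ zpowers y)
      fun e => hxE (e.ge (mem_sup_right (mem_zpowers y))))
    rw [hc, hk] at h9
    rw [hk]
    have h10 : 2 ≤ k := by
      by_contra e
      have : k < 2 := by omega
      interval_cases k <;> omega
    exact lt_of_lt_of_le (by norm_num) (Nat.pow_le_pow_right (by norm_num) h10)
  · exact mem_centralizer_singleton_iff.1 (mem_of_pow_mem_of_coprime (n := 2)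
      (by rw [sq]; exact mem_centralizer_singleton_iff.2 e)
      (Nat.coprime_two_right.2 (odd5 hP hw)))

end Cfsg.Lib.QT.Xf
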