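import Cfsg.Agent.QT.XiRep
import Cfsg.Agent.FT.BG4.Chief
import Cfsg.Agent.FT.BG1.Transfer
import Cfsg.Agent.Trans.GenFitting
import Cfsg.Agent.Solv.NilpotentHall
import Cfsg.Prelude.Def_Quasithin

/-!
The configuration `PD` in a group of `p`-rank at most two: normality when the layer is centralised,
and perfect normal subgroups meeting `P` in its derived group.
-/

set_option autoImplicit false
set_option linter.unusedSectionVars false
set_option linter.unusedVariables false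

open Pointwise Cfsg Cfsg.Lib.Solv Cfsg.Lib.FT Cfsg.Lib.FT.BG4 Subgroup
open scoped commutatorElement

namespace Cfsg.Lib.QT

variable {G : Type*} [Group G] [Finite G] {p : ℕ} [hp : Fact p.Prime] {P S : Subgroup G}

theorem card_le_mul_card_cent {A : Subgroup G} (hP : IsPGroup p P) (hA : IsElementaryAbelian p A)
    (hc : Nat.card A ≤ p ^ 2) (hn : P ≤ 𝐍 A) : Nat.card P ≤ p * Nat.card ↥(𝐂 A ⊓ P) := by
  have := ElemAb.of_isElementaryAbelian hA
  have h1 := relIndex_centralizer_dvd_card_mulAut hn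
  have h2 := PG.relIndex_mul_card_inf (𝐂 A) P
  obtain ⟨m, hm⟩ := pgroup_card_pow hP
  obtain ⟨k, -, hk⟩ := (Nat.dvd_prime_pow hp.out).1 (hm ▸ Dvd.intro _ h2)
  have h3 : ¬ 2 ≤ k := fun h => not_sq_dvd_card_mulAut hc ((pow_dvd_pow p h).trans (hk ▸ h1))
  rw [← h2, hk]
  exact Nat.mul_le_mul_right _
    ((Nat.pow_le_pow_right hp.out.pos (by omega : k ≤ 1)).trans (pow_one p).le)

theorem exists_pow_coprime (p : ℕ) [hp : Fact p.Prime] (y : G) :
    ∃ a : ℕ, (orderOf (y ^ p ^ a)).Coprime p := by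
  obtain ⟨a, m, hm, h⟩ := Nat.exists_eq_pow_mul_and_not_dvd (orderOf_pos y).ne' p hp.out.one_lt.ne'
  refine ⟨a, Nat.Coprime.coprime_dvd_left (orderOf_dvd_of_pow_eq_one ?_)
    ((Nat.Prime.coprime_iff_not_dvd hp.out).2 hm).symm⟩
  rw [← pow_mul, ← h, pow_orderOf_eq_one]

namespace PD

theorem not_mem_cent (h : PD p P S) {z : G} (hz : ∀ x ∈ P, x * (z * x * z⁻¹) ∈ ⁅P, P⁆) :
    z ∉ 𝐂 P := fun hc => h.not_le fun x hx => h.mem_of_sq_mem hx (by
  have := hz x hx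
  rwa [← mem_cent.1 hc x hx, mul_inv_cancel_right] at this)

theorem le_cent_of_elem (h : PD p P S) {W : Subgroup G} (hW : IsElementaryAbelian p W)
    (hc : Nat.card W ≤ p ^ 2) (hP : P ≤ 𝐍 W) (hS : S ≤ 𝐍 W) : P ≤ 𝐂 W :=
  (h.eq_of_card inf_le_right (normsI (norms_cent hS) h.norm)
    (card_le_mul_card_cent h.isP hW hc hP)).ge.trans inf_le_left

/-- If `P` lies in a normal `p`-subgroup then `P` is normal. -/
theorem normal_of_le (h : PD p P S) (hr : PRankLE p 2 G) {R : Subgroup G} [hRn : R.Normal]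
    (hR : IsPGroup p R) (hPR : P ≤ R) : P.Normal := by
  have hr' := pRankLE_subgroup hr
  have hN : ∀ A : Subgroup G, A ≤ 𝐍 R := fun A => le_normalizer_of_normal
  by_cases hne : ⁅P, P⁆ = ⊥
  · have hZ := abelian_center R
    have hA := isElementaryAbelian_omegaOne (p := p) hZ
    have hn : ∀ A : Subgroup G, A ≤ 𝐍 (omegaOne p (centerOf R)) := fun A =>
      (norms_center (hN A)).trans (norm_omegaOne _)
    have hAP : omegaOne p (centerOf R) ≤ P := fun a ha =>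
      h.mem_of_cent (hr' ⊤) le_top trivial (hA.2 a ha) (centS hPR (omegaOne_le _ ha).2)
    rcases h.irr' hAP (hn S) with e | e
    · rw [← e]
      exact PG.normal_of_top_le_normalizer (hn ⊤)
    · have h1 : centerOf R ≠ ⊥ := fun e' =>
        h.ne_bot (le_bot_iff.1 (hPR.trans ((center_nil_eq1 (pgroup_nil hR)).1 e').le))
      obtain ⟨a, ha, ho⟩ := Cauchy hp.out (pgroup_dvd_card (isPGroupS inf_le_left hR) h1)
      have h2 := e (mem_omegaOne ha (by rw [← ho, pow_orderOf_eq_one]))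
      rw [hne, mem_bot] at h2
      rw [h2, orderOf_one] at ho
      exact absurd ho.symm hp.out.one_lt.ne'
  obtain ⟨W, hWR, hWn, hWc, hWp, -, hWa⟩ :=
    critical_odd hp.out (pgroup_iff.2 hR) (odd_card_of_isPGroup h.ne2 hR)
  have hn : ∀ A : Subgroup G, A ≤ 𝐍 W := fun A => (hN A).trans hWn
  by_cases hW : IsMulCommutative W
  · exfalso
    have h1 := h.le_cent_of_elem ⟨hW, hWp⟩ (card_le_of_pRankLE (hr' ⊤) ⟨hW, hWp⟩ le_top)
      (hn P) (hn S)
    have h2 : W ≤ ⁅P, P⁆ := fun w hw => h.center_eq hne ▸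
      ⟨h.mem_of_cent (hr' ⊤) le_top trivial (hWp w hw) (centsC.1 h1 hw), centsC.1 h1 hw⟩
    obtain ⟨z, hzS, hz⟩ := h.exists_inv
    obtain ⟨n, hn⟩ := hWa z ⟨hN ⊤ trivial, centS h2 (h.inv_cent (h.norm hzS) hz)⟩
    refine h.not_mem_cent hz (centS hPR (mem_of_pow_mem_of_coprime hn ?_))
    obtain ⟨k, hk⟩ := h.two ⟨z, hzS⟩
    exact Nat.Coprime.coprime_dvd_left (orderOf_dvd_of_pow_eq_one (congrArg Subtype.val hk))
      (Nat.coprime_pow_primes k n Nat.prime_two hp.out h.ne2.symm)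
  · have hWP := isPGroupS hWR hR
    have hc : Nat.card W = p ^ 3 := by
      obtain ⟨m, hm⟩ := pgroup_card_pow hWP
      have h1 := card_le_cube_of_exponent' (hr' W) hWp
      rw [hm, Nat.pow_le_pow_iff_right hp.out.one_lt] at h1
      by_contra h2
      have h3 : m ≤ 2 := by
        by_contra h3
        exact h2 (by rw [hm, show m = 3 by omega])
      apply hW
      have := der_le_of_card_le_sq_mul hWP (normal1 W)
        (by rw [hm, card_bot, mul_one]; exact Nat.pow_le_pow_right hp.out.pos h3)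
      exact abelian_iff_der.2 (le_bot_iff.1 this)
    have hC := critical_extraspecial hp.out hWR (p3group_extraspecial hc hW)
      ((p3group_center hc hW).1 ▸ hWc)
    obtain ⟨E, hEW, hE⟩ := exists_le_card_pow (n := 2) hWP
      (hc ▸ Nat.pow_le_pow_right hp.out.pos (by omega))
    have hE' : IsElementaryAbelian p E := ⟨abelian_iff_der.2 (le_bot_iff.1
      (der_le_of_card_le_sq_mul (isPGroupS hEW hWP) (normal1 E) (by rw [hE, card_bot, mul_one]))),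
      fun x hx => hWp x (hEW hx)⟩
    have hPW : P ≤ W := fun x hx => by
      have h1 : x ∈ W ⊔ (R ⊓ 𝐂 W) := hC.sup.ge (hPR hx)
      obtain ⟨w, hw, c, hc, rfl⟩ := (PG.mem_sup_iff_of_le_normalizer (hn _)).1 h1
      have h2 : Commute w c := mem_cent.1 hc.2 w hw
      have h3 := h.pow_eq_one hx
      rw [h2.mul_pow, hWp w hw, one_mul] at h3
      exact mul_mem hw (hEW (mem_of_rank_two (hr' ⊤) hE' le_top hE.ge trivial h3 (centS hEW hc.2)))
    have : P = W := eq_of_le_of_card_le hPW (by rw [hc, h.card_eq, h.cardZ hne, pow_succ])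
    rw [this]
    exact PG.normal_of_top_le_normalizer (hn ⊤)

/-- If `P` centralises the layer then `P` is normal. -/
theorem normal_of_cent_layer (h : PD p P S) (h2 : pCore 2 G = ⊥) (hq : IsStronglyQuasithin G)
    (hE : P ≤ 𝐂 (layer G)) : P.Normal := by
  have hr := hq p hp.out h.ne2
  set F' := fittingSubgroup G ⊓ pPrimeCore p G with hF'
  have := fitting_normal G
  have := Trans.layer_normal G
  have hF : P ≤ 𝐂 F' := by
    refine centsC.1 (le_of_forall_Sylow_le fun r _ hd => ?_)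
    obtain ⟨Q, hQ⟩ := Sylow_exists r F'
    have hQr : Q ≤ pCore r G :=
      le_pCore_of_le_fitting (Sylow_pgroup hQ) ((pHall_sub hQ).trans inf_le_left)
    have hr2 : r ≠ 2 := by
      rintro rfl
      exact Sylow_ne_bot hQ hd (le_bot_iff.1 (h2 ▸ hQr))
    have hpr : p ≠ r := by
      rintro rfl
      exact not_dvd_card_pPrimeCore p G (hd.trans (cardSg inf_le_right))
    exact ⟨Q, hQ, hQr.trans (centsC.1 (h.le_cent_of_ne hr2 hpr (pCore_isPGroup r G)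
      (pRankLE_subgroup (hq r Fact.out hr2) _)))⟩
  obtain ⟨N, hN, hPN, hNp⟩ := h.exists_normal_pow_cent h.ne2 (pCore_isPGroup p G)
    (pRankLE_subgroup hr _)
  set C := N ⊓ 𝐂 (layer G) ⊓ 𝐂 F' with hC
  have hCn : C.Normal := inferInstance
  obtain ⟨Q, hQ, hPQ⟩ := Sylow_superset (show P ≤ C from le_inf (le_inf hPN hE) hF) h.isP
  have h1 : C ≤ 𝐂 C ⊔ Q := le_sup_Sylow_of_forall_pow_mem hQ fun x hx => by
    obtain ⟨k, hk⟩ := hNp x hx.1.1
    have h3 : x ^ p ^ k ∈ fittingSubgroup G := by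
      apply Trans.centralizer_genFitting_le_fitting
      rw [generalizedFittingSubgroup, fitting_eq_pCore_sup_inf_pPrimeCore p G, cent_sup, cent_sup]
      exact ⟨pow_mem hx.1.2 _, hk, pow_mem hx.2 _⟩
    obtain ⟨a, ha⟩ := exists_pow_coprime p (x ^ p ^ k)
    refine ⟨k + a, ?_⟩
    rw [pow_add, pow_mul]
    exact centsC.1 (inf_le_right : C ≤ 𝐂 F')
      ⟨pow_mem h3 _, mem_pPrimeCore_of_mem_fitting (pow_mem h3 _) ha⟩
  have h3 : C ≤ 𝐍 Q := h1.trans (sup_le (cents_norm (centS (pHall_sub hQ))) (normG Q))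
  have h4 := Frattini_arg (normal_top_iff.2 hCn) hQ
  have hQn : Q.Normal := PG.normal_of_top_le_normalizer (h4 ▸ sup_le h3 inf_le_right)
  exact h.normal_of_le hr (Sylow_pgroup hQ) hPQ

/-- A perfect normal subgroup meeting `P` inside `P'` has order prime to `p`. -/
theorem not_dvd_card (h : PD p P S) (hr : PRankLE p 2 G) {L : Subgroup G} [hLn : L.Normal]
    (hL : ⁅L, L⁆ = L) (hPL : P ⊓ L ≤ ⁅P, P⁆) : ¬ p ∣ Nat.card L := fun hd => by
  have hr' := pRankLE_subgroup hr ⊤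
  have hN : ∀ A : Subgroup G, A ≤ 𝐍 L := fun A => le_normalizer_of_normal
  obtain ⟨R, hR, hPR⟩ := Sylow_superset (le_sup_right : P ≤ L ⊔ P) h.isP
  have hRp := Sylow_pgroup hR
  have hR0 : IsSylowOf p (R ⊓ L) L := setI_normal_Hall (normalYl (hN P)) hR
  have hR0p := Sylow_pgroup hR0
  have hn0 : R ⊓ L ⊲ R := norm_normalI (hN R)
  obtain ⟨a, ha, ho⟩ := Cauchy hp.out (pgroup_dvd_card (isPGroupS inf_le_left hR0p)
    (meet_center_nil (pgroup_nil hRp) hn0 (Sylow_ne_bot hR0 hd)))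
  have hap : a ^ p = 1 := by rw [← ho, pow_orderOf_eq_one]
  have ha1 : a ≠ 1 := fun e => by rw [e, orderOf_one] at ho; exact hp.out.one_lt.ne ho
  have haZ : a ∈ ⁅P, P⁆ :=
    hPL ⟨h.mem_of_cent hr' le_top trivial hap (centS hPR ha.2.2), ha.1.2⟩
  have hne : ⁅P, P⁆ ≠ ⊥ := trivgPn.2 ⟨a, haZ, ha1⟩
  have hZ := h.cardZ hne
  have hZp : (Nat.card ↥⁅P, P⁆).Prime := hZ ▸ hp.out
  have hZa := nt_gen_prime hZp haZ ha1
  have hZR : ⁅P, P⁆ ≤ 𝐂 R := hZa ▸ zpowers_le.2 ha.2.2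
  have hZ0 : ⁅P, P⁆ ≤ R ⊓ L := hZa ▸ zpowers_le.2 ha.1
  have hP3 := h.card_eq
  rw [hZ] at hP3
  have hp1 := hp.out.one_lt
  have hc : IsCyclic ↥(R ⊓ L) := by
    by_contra hc
    obtain ⟨A, hAR, hA⟩ := odd_normal_p2Elem_exists hp.out hRp (odd_card_of_isPGroup h.ne2 hRp)
      hn0 hc
    obtain ⟨hA1, hA2, hA3⟩ := pnElemP.1 hA
    have h1 := card_le_mul_card_cent h.isP hA2 hA3.le (hPR.trans hAR.norm)
    have h2 : 𝐂 A ⊓ P ≤ ⁅P, P⁆ := fun x hx => hPL ⟨hx.2,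
      (hA1 (mem_of_rank_two hr' hA2 le_top hA3.ge trivial (h.pow_eq_one hx.2) hx.1)).2⟩
    have h3 := card_le_of_le h2
    rw [hZ] at h3
    nlinarith
  have hab := cyclic_abelian hc
  have hO : ∀ b ∈ R ⊓ L, b ^ p = 1 → b ∈ ⁅P, P⁆ := fun b hb hbp => by
    have h1 : ⁅P, P⁆ ≤ abelianOmega p (R ⊓ L) := fun x hx =>
      mem_abelianOmega.2 ⟨hZ0 hx, h.powZ hx⟩
    rw [eq_of_le_of_card_le h1 (by
      rw [hZ, ← abelem_cyclic (isElementaryAbelian_abelianOmega _)]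
      exact cyclicS (abelianOmega_le _) hc)]
    exact mem_abelianOmega.2 ⟨hb, hbp⟩
  obtain ⟨c, hc0⟩ := cyclicP.1 hc
  have hc1 : c ∈ R ⊓ L := hc0 ▸ mem_zpowers c
  obtain ⟨x, hx0, hxZ⟩ : ∃ x ∈ P ⊓ 𝐂₁ c, x ∉ ⁅P, P⁆ := by
    by_contra hcon
    have h1 : P ⊓ 𝐂₁ c ≤ ⁅P, P⁆ := fun x hx => by
      by_contra h'
      exact hcon ⟨x, hx, h'⟩
    have h2 := card_le_card_mul_card_inf_centralizer (H := P) (S := ⁅P, P⁆) (v := c) fun y hy =>
      hO _ (commg_subr.2 (hPR.trans hn0.norm) (commutator_mem_commutator hy hc1))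
        (commutator_pow_eq_one_of_centralizes_omega h.ne2 hR0p (hn0.norm (hPR hy))
          (h.pow_eq_one hy) (fun b hb hbp => h.comm_Z hy (hO b hb hbp)) hc1)
    have h3 := card_le_of_le h1
    rw [hZ] at h2 h3
    nlinarith
  obtain ⟨hx, hxc⟩ := mem_inf.1 hx0
  have hxR : x ∈ 𝐂 (R ⊓ L) := by rw [hc0, cent_zpowers]; exact hxc
  obtain ⟨y, hy, hxy⟩ : ∃ y ∈ P, ⁅x, y⁆ ≠ 1 := by
    by_contra hcon
    refine hxZ (h.center_eq hne ▸ ⟨hx, mem_cent.2 fun y hy => ?_⟩)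
    by_contra h'
    exact hcon ⟨y, hy, fun e => h' (commutatorElement_eq_one_iff_mul_comm.1 e).symm⟩
  have hZxy := nt_gen_prime hZp (commutator_mem_commutator hx hy) hxy
  have hA : L ⊓ 𝐍 R ≤ 𝐂 ⁅P, P⁆ := fun l hl => by
    have h0 : ∀ r ∈ R, ⁅l, r⁆ ∈ R ⊓ L := fun r hr =>
      mem_inf.2 ⟨R.mul_mem ((memJ_norm hl.2).2 hr) (R.inv_mem hr), commg_subl.2 (hN R)
        (commutator_mem_commutator hl.1 hr)⟩
    have h1 : l * x * l⁻¹ = ⁅l, x⁆ * x := by rw [commutatorElement_def]; group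
    have h2 : l * y * l⁻¹ = ⁅l, y⁆ * y := by rw [commutatorElement_def]; group
    have h3 : Commute ⁅l, x⁆ x := mem_cent.1 hxR _ (h0 x (hPR hx))
    have h4 : ⁅l, x⁆ ∈ ⁅P, P⁆ := hO _ (h0 x (hPR hx)) (by
      have := h3.mul_pow p
      rwa [← h1, conj_pow, h.pow_eq_one hx, mul_one, mul_one, mul_inv_cancel, eq_comm] at this)
    have h5 : ⁅l, y⁆ * y ∈ R := mul_mem (h0 y (hPR hy)).1 (hPR hy)
    have h6 : ⁅x, ⁅l, y⁆⁆ = 1 :=
      commutatorElement_eq_one_iff_mul_comm.2 (mem_cent.1 hxR _ (h0 y (hPR hy))).symm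
    have h7 : ⁅⁅l, x⁆, ⁅l, y⁆ * y⁆ = 1 :=
      commutatorElement_eq_one_iff_mul_comm.2 (mem_cent.1 (hZR h4) _ h5).symm
    have h8 : ⁅x, ⁅l, y⁆ * y⁆ = ⁅x, y⁆ := by
      rw [comm_mul_right' (mem_cent.1 (hZR (commutator_mem_commutator hx hy)) _ (h0 y (hPR hy)).1),
        h6, one_mul]
    have h9 : l * ⁅x, y⁆ * l⁻¹ = ⁅x, y⁆ := by
      rw [conj_comm, h1, h2, comm_mul_left_eq, h7, mul_one, h8,
        mem_cent.1 (hZR (commutator_mem_commutator hx hy)) _ (h0 x (hPR hx)).1,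
        mul_inv_cancel_right]
    rw [hZxy, cent_zpowers, mem_cent1]
    exact mul_inv_eq_iff_eq_mul.1 h9
  have hB : (L ⊔ P) ⊓ 𝐍 ⁅P, P⁆ ≤ 𝐂 ⁅P, P⁆ := by
    have h1 := Frattini_arg (subcent_normal (L ⊔ P) ⁅P, P⁆)
      (pHall_subl (le_inf (pHall_sub hR) (centsC.1 hZR)) inf_le_left hR)
    rw [← h1]
    refine sup_le inf_le_right fun g hg => ?_
    obtain ⟨l, hl, w, hw, rfl⟩ := (PG.mem_sup_iff_of_le_normalizer (hN P)).1 hg.1.1
    exact mul_mem (hA ⟨hl, (mul_mem_cancel_right (normG R (hPR hw))).1 hg.2⟩)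
      (centsC.1 h.Z_cent hw)
  have hiso : ∀ u ∈ L, ∀ b ∈ ⁅P, P⁆, u * b * u⁻¹ ∈ R ⊓ L → u * b * u⁻¹ = b := fun u hu b hb hub => by
    by_cases hb1 : b = 1
    · rw [hb1, mul_one, mul_inv_cancel]
    have h1 : u * b * u⁻¹ ∈ ⁅P, P⁆ := hO _ hub (by rw [conj_pow, h.powZ hb, mul_one, mul_inv_cancel])
    have h2 : zpowers u ≤ 𝐍 ⁅P, P⁆ := by
      refine zpowers_le.2 (mem_normalizer_fintype fun w hw => ?_)
      have hw' : w ∈ zpowers b := nt_gen_prime hZp hb hb1 ▸ hw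
      obtain ⟨n, rfl⟩ := hw'
      show u * b ^ n * u⁻¹ ∈ ⁅P, P⁆
      rw [← conj_zpow]
      exact zpow_mem h1 n
    rw [← mem_cent.1 (hB ⟨mem_sup_left hu, h2 (mem_zpowers u)⟩) b hb, mul_inv_cancel_right]
  obtain ⟨m, hm⟩ := pgroup_card_pow hR0p
  rcases m with _ | m
  · exact Sylow_ne_bot hR0 hd (trivg_card1.2 (by simpa using hm))
  have hpow : ∀ r ∈ R ⊓ L, (r ^ p ^ m) ^ p = 1 := fun r hr => by
    rw [← pow_mul, ← pow_succ, ← hm]
    exact congrArg Subtype.val (pow_card_eq_one' (x := (⟨r, hr⟩ : ↥(R ⊓ L))))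
  have hF := focal_subgroup_gen hp.out hR0
  rw [hL, inf_assoc, inf_idem] at hF
  have h1 : R ⊓ L ≤ abelianOmega (p ^ m) (R ⊓ L) := hF.le.trans ((closure_le _).2 (by
    rintro _ ⟨r, hr, u, hu, hur, rfl⟩
    refine mem_abelianOmega.2 ⟨mul_mem (inv_mem hr) hur, ?_⟩
    have h2 : Commute r⁻¹ (u * r * u⁻¹) := abelian_comm hab (inv_mem hr) hur
    rw [h2.mul_pow, conj_pow, hiso u hu _ (hO _ (pow_mem hr _) (hpow r hr))
      (by rw [← conj_pow]; exact pow_mem hur _), inv_pow, inv_mul_cancel]))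
  have h2 := orderOf_dvd_of_pow_eq_one (mem_abelianOmega.1 (h1 hc1)).2
  rw [← Nat.card_zpowers, ← hc0, hm, Nat.pow_dvd_pow_iff_le_right hp1] at h2
  omega

end PD

end Cfsg.Lib.QT
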